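import Mathlib

/-! LADDER W3 (S2400), rung F3 -/

set_option autoImplicit false

namespace Cfsg.Agent.Lib.Helper45.StW

/-- [F3] -/
theorem f3_cases {K : Type*} [Field K] [Fintype K] (hK : Fintype.card K = 3) :
    (∀ t : K, t = 0 ∨ t = 1 ∨ t = -1) ∧ (3 : K) = 0 := by
  classical
  have h30 : (3 : K) = 0 := by
    have := Nat.cast_card_eq_zero K
    rw [hK] at this
    exact_mod_cast this
  refine ⟨?_, h30⟩
  have h2 : (2 : K) ≠ 0 := by
    intro h
    have : (1 : K) = 0 := by linear_combination h30 - h
    exact one_ne_zero this
  have h1n : (1 : K) ≠ -1 := by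
    intro h
    apply h2
    linear_combination h
  have hcard : ({0, 1, -1} : Finset K).card = 3 := by
    rw [Finset.card_insert_of_notMem, Finset.card_insert_of_notMem, Finset.card_singleton]
    · simpa using h1n
    · simp
  have huniv : ({0, 1, -1} : Finset K) = Finset.univ := by
    apply Finset.eq_univ_of_card
    rw [hcard, hK]
  intro t
  have := Finset.mem_univ t
  rw [← huniv] at this
  simpa using this

end Cfsg.Agent.Lib.Helper45.StW
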