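import Cfsg.Prelude
import Cfsg.Agent.Lib.Helper30.Coprime
import Cfsg.Agent.Lib.Helper66.PLength
import Cfsg.Agent.Lib.Helper12.MinNormal
import Cfsg.Agent.Lib.Helper1.Coprime2

/-!
# Auxiliary lemmas for Bender–Glauberman 3.6 (S1444)
-/

set_option autoImplicit false

namespace Cfsg.Agent.Lib.Helper3

open Subgroup Cfsg
open Cfsg.Agent.Lib.Helper30 (cj)
open Cfsg.Agent.Lib.Helper66 (ups)
open scoped commutatorElement

/-- a normal Sylow `p`-subgroup gives `p`-length at most one. -/
theorem pLengthLE_one_of_normal_sylow {X : Type*} [Group X] [Finite X] {p : ℕ} [hp : Fact p.Prime]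
    (S : Subgroup X) (hS : S.Normal) (hSp : IsPGroup p S) (hidx : S.index.Coprime p) :
    PLengthLE p 1 X := by
  rw [Cfsg.Agent.Lib.Helper66.pLengthLE_iff, eq_top_iff]
  obtain ⟨m, hm⟩ := IsPGroup.iff_card.mp hSp
  have h2 : S ≤ ups p X 2 :=
    Cfsg.Agent.Lib.Helper66.le_ups_succ_of_odd (j := 1) (X := ⊥) (m := m) (by decide) hS bot_le
      (by rw [relIndex_bot_left, hm])
  exact Cfsg.Agent.Lib.Helper66.le_ups_succ_of_even (j := 2) (X := S) (by decide) inferInstance h2
    (by rw [relIndex_top_right]; exact hidx)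

/-- the characteristic series of a group of `p`-length at most one. -/
theorem exists_series_of_pLengthLE_one {X : Type*} [Group X] [Finite X] {p : ℕ} [hp : Fact p.Prime]
    (h : PLengthLE p 1 X) :
    ∃ A B : Subgroup X, A.Characteristic ∧ B.Characteristic ∧ A ≤ B ∧ (Nat.card A).Coprime p ∧
      (∃ m : ℕ, A.relIndex B = p ^ m) ∧ B.index.Coprime p := by
  rw [Cfsg.Agent.Lib.Helper66.pLengthLE_iff] at h
  refine ⟨ups p X 1, ups p X 2, Cfsg.Agent.Lib.Helper66.ups_characteristic 1,
    Cfsg.Agent.Lib.Helper66.ups_characteristic 2, Cfsg.Agent.Lib.Helper66.ups_le_succ 1, ?_, ?_, ?_⟩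
  · have := Cfsg.Agent.Lib.Helper66.ups_relIndex_even (p := p) (G := X) (j := 0) (by decide)
    rwa [Cfsg.Agent.Lib.Helper66.ups_zero, relIndex_bot_left] at this
  · exact Cfsg.Agent.Lib.Helper66.ups_relIndex_odd (p := p) (G := X) (j := 1) (by decide)
  · have := Cfsg.Agent.Lib.Helper66.ups_relIndex_even (p := p) (G := X) (j := 2) (by decide)
    have e : ups p X (2 + 1) = ⊤ := h
    rwa [e, relIndex_top_right] at this

/-- The hypotheses of B-G 3.6 (with `H = [H, R]`). -/
structure Hyp36 {G : Type*} [Group G] (H R : Subgroup G) (a : G) (r : ℕ) : Prop where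
  normal : H.Normal
  sup : H ⊔ R = ⊤
  cop : (Nat.card H).Coprime (Nat.card R)
  comm : ⁅H, R⁆ = H
  mem : a ∈ R
  prime : r.Prime
  order : orderOf a = r
  zgroup : IsZGroup ↥(H ⊓ centralizer ({a} : Set G))

theorem Hyp36.map {G : Type*} [Group G] [Finite G] {H R : Subgroup G} {a : G} {r : ℕ}
    (h : Hyp36 H R a r) (N : Subgroup G) [N.Normal] (hNH : N ≤ H) :
    Hyp36 (H.map (QuotientGroup.mk' N)) (R.map (QuotientGroup.mk' N)) (QuotientGroup.mk' N a) r := by
  have hsurj := QuotientGroup.mk'_surjective N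
  have hdisj : H ⊓ R = ⊥ := (disjoint_of_coprime_natCard h.cop).eq_bot
  refine ⟨h.normal.map _ hsurj, ?_, ?_, ?_, mem_map_of_mem _ h.mem, h.prime, ?_, ?_⟩
  · rw [← Subgroup.map_sup, h.sup, map_top_of_surjective _ hsurj]
  · exact Nat.Coprime.coprime_dvd_left (card_map_dvd _ _)
      (Nat.Coprime.coprime_dvd_right (card_map_dvd _ _) h.cop)
  · rw [← Subgroup.map_commutator, h.comm]
  · have h1 : orderOf (QuotientGroup.mk' N a) ∣ r := h.order ▸ orderOf_map_dvd _ a
    rcases (Nat.dvd_prime h.prime).mp h1 with h2 | h2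
    · exfalso
      rw [orderOf_eq_one_iff] at h2
      have haN : a ∈ N := (QuotientGroup.eq_one_iff a).mp h2
      have : a ∈ H ⊓ R := ⟨hNH haN, h.mem⟩
      rw [hdisj, mem_bot] at this
      have h3 := h.order
      rw [this, orderOf_one] at h3
      exact h.prime.one_lt.ne h3
    · exact h2
  · have := h.zgroup
    have hle : (H ⊓ centralizer ({a} : Set G)).map (QuotientGroup.mk' N) ≤
        H.map (QuotientGroup.mk' N) ⊓ centralizer ({QuotientGroup.mk' N a} : Set (G ⧸ N)) := by
      rintro _ ⟨x, hx, rfl⟩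
      refine ⟨mem_map_of_mem _ hx.1, ?_⟩
      show QuotientGroup.mk' N x ∈ centralizer ({QuotientGroup.mk' N a} : Set (G ⧸ N))
      rw [mem_centralizer_singleton_iff]
      have := mem_centralizer_singleton_iff.mp hx.2
      rw [← map_mul, ← map_mul, this]
    let f : ↥(H ⊓ centralizer ({a} : Set G)) →*
        ↥(H.map (QuotientGroup.mk' N) ⊓ centralizer ({QuotientGroup.mk' N a} : Set (G ⧸ N))) :=
      (Subgroup.inclusion hle).comp ((QuotientGroup.mk' N).subgroupMap _)
    apply IsZGroup.of_surjective (f := f)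
    rintro ⟨y, hyH, hyC⟩
    obtain ⟨x, hx, rfl⟩ := hyH
    have hcomm := mem_centralizer_singleton_iff.mp hyC
    have haH : zpowers a ≤ normalizer (H : Set G) := by
      have := h.normal
      rw [normalizer_eq_top]; exact le_top
    have haN : zpowers a ≤ normalizer (N : Set G) := by
      rw [normalizer_eq_top]; exact le_top
    have hcop : (Nat.card (zpowers a)).Coprime (Nat.card H) := by
      refine Nat.Coprime.coprime_dvd_left ?_ h.cop.symm
      exact card_dvd_of_le (zpowers_le.mpr h.mem)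
    obtain ⟨n, hn, hc⟩ := Cfsg.Agent.Lib.Helper30.exists_mem_centralizer_of_coset haH hcop
      (Or.inl inferInstance) hNH haN hx (by
        intro b hb
        obtain ⟨k, rfl⟩ := mem_zpowers_iff.mp hb
        rw [← QuotientGroup.eq_one_iff]
        have hc2 : Commute (QuotientGroup.mk' N x) (QuotientGroup.mk' N a) := hcomm
        have hc3 : Commute (QuotientGroup.mk' N x) ((QuotientGroup.mk' N a) ^ k) := hc2.zpow_right k
        have e : ((x⁻¹ * a ^ k * x * (a ^ k)⁻¹ : G) : G ⧸ N) =
            (QuotientGroup.mk' N x)⁻¹ * (QuotientGroup.mk' N a) ^ k * (QuotientGroup.mk' N x) *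
              ((QuotientGroup.mk' N a) ^ k)⁻¹ := by
          simp
        rw [e, mul_assoc (QuotientGroup.mk' N x)⁻¹, ← hc3.eq]
        group)
    refine ⟨⟨x * n, H.mul_mem hx (hNH hn), ?_⟩, ?_⟩
    · show x * n ∈ centralizer ({a} : Set G)
      rw [mem_centralizer_singleton_iff]
      exact (mem_centralizer_iff.mp hc a (mem_zpowers a)).symm
    · apply Subtype.ext
      show QuotientGroup.mk' N (x * n) = QuotientGroup.mk' N x
      have hn1 : QuotientGroup.mk' N n = 1 := (QuotientGroup.eq_one_iff n).mpr hn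
      rw [map_mul, hn1, mul_one]

end Cfsg.Agent.Lib.Helper3
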