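import Cfsg.Prelude
import Cfsg.Agent.Lib.Helper3.BG36Aux
import Cfsg.Agent.Lib.Helper66.PiHall
import Cfsg.Agent.Lib.Helper42.Supersolvable2

/-!
# Bender–Glauberman 3.6 (S1444): invariant series, invariant complements, Z-group lemma
-/

set_option autoImplicit false

namespace Cfsg.Agent.Lib.Helper3

open Subgroup Cfsg
open Cfsg.Agent.Lib.Helper30 (cj)
open Cfsg.Agent.Lib.Helper66 (ups)
open scoped commutatorElement

/-- a `G`-invariant series witnessing `p`-length at most one of `H`, above `V`. -/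
def Series36 (p : ℕ) {G : Type*} [Group G] (V H : Subgroup G) : Prop :=
  ∃ A B : Subgroup G, A.Normal ∧ B.Normal ∧ V ≤ A ∧ A ≤ B ∧ B ≤ H ∧ (V.relIndex A).Coprime p ∧
    (∃ m : ℕ, A.relIndex B = p ^ m) ∧ (B.relIndex H).Coprime p

theorem Series36.pLengthLE {G : Type*} [Group G] [Finite G] {p : ℕ} [hp : Fact p.Prime]
    {H : Subgroup G} (h : Series36 p ⊥ H) : PLengthLE p 1 ↥H := by
  obtain ⟨A, B, hA, hB, -, hAB, hBH, hAp, ⟨m, hm⟩, hBp⟩ := h
  rw [Cfsg.Agent.Lib.Helper66.pLengthLE_iff, eq_top_iff]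
  have h1 : A.subgroupOf H ≤ ups p ↥H 1 :=
    Cfsg.Agent.Lib.Helper66.le_ups_succ_of_even (j := 0) (X := ⊥) (by decide) inferInstance bot_le
      (by
        rw [relIndex_bot_left, Cfsg.Agent.Lib.Helper30.card_subgroupOf (hAB.trans hBH)]
        rwa [relIndex_bot_left] at hAp)
  have h2 : B.subgroupOf H ≤ ups p ↥H 2 :=
    Cfsg.Agent.Lib.Helper66.le_ups_succ_of_odd (j := 1) (X := A.subgroupOf H) (m := m) (by decide)
      inferInstance h1 (by rw [relIndex_subgroupOf hBH, hm])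
  exact Cfsg.Agent.Lib.Helper66.le_ups_succ_of_even (j := 2) (X := B.subgroupOf H) (by decide)
    inferInstance h2 (by rw [relIndex_top_right]; exact hBp)

/-- pull back a series along the quotient by a normal subgroup `V ≤ H`. -/
theorem Series36.of_quotient {G : Type*} [Group G] {p : ℕ} {V H : Subgroup G} [V.Normal]
    (hVH : V ≤ H) (h : Series36 p ⊥ (H.map (QuotientGroup.mk' V))) : Series36 p V H := by
  obtain ⟨A, B, hA, hB, -, hAB, hBH, hAp, ⟨m, hm⟩, hBp⟩ := h
  have hsurj := QuotientGroup.mk'_surjective V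
  have hker : (⊥ : Subgroup (G ⧸ V)).comap (QuotientGroup.mk' V) = V := by
    rw [MonoidHom.comap_bot, QuotientGroup.ker_mk']
  refine ⟨A.comap (QuotientGroup.mk' V), B.comap (QuotientGroup.mk' V), hA.comap _, hB.comap _,
    ?_, comap_mono hAB, ?_, ?_, ⟨m, ?_⟩, ?_⟩
  · exact hker.symm.le.trans (comap_mono bot_le)
  · have := comap_mono (f := QuotientGroup.mk' V) hBH
    rwa [comap_map_eq, QuotientGroup.ker_mk', sup_eq_left.mpr hVH] at this
  · have e : V.relIndex (A.comap (QuotientGroup.mk' V)) =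
        ((⊥ : Subgroup (G ⧸ V)).comap (QuotientGroup.mk' V)).relIndex
          (A.comap (QuotientGroup.mk' V)) := congrArg (fun Z : Subgroup G => Z.relIndex (A.comap (QuotientGroup.mk' V))) hker.symm
    rw [e, relIndex_comap, map_comap_eq_self_of_surjective hsurj]
    exact hAp
  · rw [relIndex_comap, map_comap_eq_self_of_surjective hsurj, hm]
  · rw [relIndex_comap]; exact hBp

theorem Series36.of_coprime {G : Type*} [Group G] {p : ℕ} {V H : Subgroup G}
    (hV : (Nat.card V).Coprime p) (h : Series36 p V H) : Series36 p ⊥ H := by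
  obtain ⟨A, B, hA, hB, hVA, hAB, hBH, hAp, hm, hBp⟩ := h
  refine ⟨A, B, hA, hB, bot_le, hAB, hBH, ?_, hm, hBp⟩
  rw [relIndex_bot_left, Cfsg.Agent.Lib.Helper30.card_eq_card_mul_relIndex hVA]
  exact Nat.Coprime.mul_left hV hAp

/-- An invariant complement to a normal abelian Sylow subgroup of a normal subgroup, with the
Frattini factorization. -/
theorem exists_invariant_compl36 {G : Type*} [Group G] [Finite G] [Group.IsSolvable G] {p : ℕ}
    [hp : Fact p.Prime] (V K R : Subgroup G) [V.Normal] [K.Normal] (hVc : IsMulCommutative V)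
    (hVp : IsPGroup p V) (hVK : V ≤ K) (hidx : (V.relIndex K).Coprime p)
    (hcop : (Nat.card R).Coprime (Nat.card K)) :
    ∃ K₀ : Subgroup G, K₀ ≤ K ∧ (Nat.card K₀).Coprime p ∧ R ≤ normalizer (K₀ : Set G) ∧
      V ⊓ K₀ = ⊥ ∧ V ⊔ K₀ = K ∧ ∀ g : G, ∃ v ∈ V, ∃ n ∈ normalizer (K₀ : Set G), g = v * n := by
  obtain ⟨K₀, ⟨hK₀K, hK₀π, hK₀π'⟩, hR⟩ :=
    Cfsg.Agent.Lib.Helper66.exists_invariant_isPiHallOf (A := R) (G := K)
      (by rw [normalizer_eq_top]; exact le_top) hcop inferInstance {q | q ≠ p}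
  obtain ⟨k, hk⟩ := IsPGroup.iff_card.mp hVp
  have hK₀p : (Nat.card K₀).Coprime p :=
    ((Nat.Prime.coprime_iff_not_dvd hp.out).2 (fun h => hK₀π p hp.out h rfl)).symm
  have hVK₀ : (Nat.card V).Coprime (Nat.card K₀) := by
    rw [hk]; exact Nat.Coprime.pow_left k hK₀p.symm
  have hdisj : V ⊓ K₀ = ⊥ := (disjoint_of_coprime_natCard hVK₀).eq_bot
  have hcard : Nat.card K₀ = V.relIndex K := by
    apply Cfsg.Agent.Lib.Helper66.pi_factorization_unique (π := {q | q ≠ p})
      (n₁ := K₀.relIndex K) (n₂ := Nat.card V) _ hK₀π hK₀π'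
    · intro q hq hqd hqp
      subst hqp
      exact hq.one_lt.ne' (Nat.Coprime.eq_one_of_dvd hidx.symm hqd)
    · rw [hk]
      exact Cfsg.Agent.Lib.Helper66.piNum'_prime_pow (π := {q | q ≠ p}) hp.out (fun h => h rfl) k
    · rw [← Cfsg.Agent.Lib.Helper30.card_eq_card_mul_relIndex hK₀K, mul_comm,
        ← Cfsg.Agent.Lib.Helper30.card_eq_card_mul_relIndex hVK]
  have hsup : V ⊔ K₀ = K := by
    apply Subgroup.eq_of_le_of_card_ge (sup_le hVK hK₀K)
    rw [Cfsg.Agent.Lib.Helper30.card_sup_eq_mul V K₀ hdisj, hcard,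
      ← Cfsg.Agent.Lib.Helper30.card_eq_card_mul_relIndex hVK]
  refine ⟨K₀, hK₀K, hK₀p, hR, hdisj, hsup, fun g => ?_⟩
  have h1 : cj g K₀ ≤ V ⊔ K₀ := by
    rw [hsup]
    have := Cfsg.Agent.Lib.Helper30.cj_mono g hK₀K
    rwa [Cfsg.Agent.Lib.Helper30.cj_normal g K] at this
  obtain ⟨v, hv, hvK⟩ := Cfsg.Agent.Lib.Helper30.sz_conj_abelian V K₀ (cj g K₀) hVK₀ h1
    (Cfsg.Agent.Lib.Helper30.card_cj _ _)
  refine ⟨v, hv, v⁻¹ * g, ?_, by group⟩
  apply Cfsg.Agent.Lib.Helper30.mem_normalizer_of_cj_eq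
  rw [Cfsg.Agent.Lib.Helper30.cj_mul, hvK, Cfsg.Agent.Lib.Helper30.cj_inv_cj]

/-- A `p`-subgroup of the commutator subgroup centralizes every normal `p'`-subgroup all of whose
Sylow subgroups are cyclic. -/
theorem le_centralizer_of_isZGroup36 {X : Type*} [Group X] [Finite X] {p : ℕ} [hp : Fact p.Prime]
    (K P : Subgroup X) [hKn : K.Normal] (hZ : IsZGroup K) (hP : IsPGroup p P)
    (hK : (Nat.card K).Coprime p) (hPX : P ≤ commutator X) : P ≤ centralizer (K : Set X) := by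
  have hDc : IsCyclic ↥⁅K, K⁆ := by
    have h1 : IsCyclic (commutator ↥K) := IsZGroup.isCyclic_commutator ↥K
    rw [← Subgroup.map_subtype_commutator]
    exact ((commutator ↥K).equivMapOfInjective K.subtype K.subtype_injective).isCyclic.mp h1
  have h1 : commutator X ≤ centralizer ((⁅K, K⁆ : Subgroup X) : Set X) :=
    Cfsg.Agent.Lib.Helper42.commutator_le_centralizer_of_cyclic_normal ⁅K, K⁆
  have hsurj := QuotientGroup.mk'_surjective ⁅K, K⁆
  have hKbn : (K.map (QuotientGroup.mk' ⁅K, K⁆)).Normal := hKn.map _ hsurj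
  have hKbZ : IsZGroup ↥(K.map (QuotientGroup.mk' ⁅K, K⁆)) :=
    IsZGroup.of_surjective (f := (QuotientGroup.mk' ⁅K, K⁆).subgroupMap K)
      (MonoidHom.subgroupMap_surjective _ _)
  have hKbc : IsMulCommutative ↥(K.map (QuotientGroup.mk' ⁅K, K⁆)) := by
    rw [← Subgroup.le_centralizer_iff_isMulCommutative,
      ← Subgroup.commutator_eq_bot_iff_le_centralizer, ← Subgroup.map_commutator,
      (Subgroup.map_eq_bot_iff _), QuotientGroup.ker_mk']
  have hKbcyc : IsCyclic ↥(K.map (QuotientGroup.mk' ⁅K, K⁆)) := by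
    let _ : CommGroup ↥(K.map (QuotientGroup.mk' ⁅K, K⁆)) :=
      { (inferInstance : Group ↥(K.map (QuotientGroup.mk' ⁅K, K⁆))) with
        mul_comm := hKbc.is_comm.comm }
    infer_instance
  have h2 : commutator (X ⧸ ⁅K, K⁆) ≤ centralizer ((K.map (QuotientGroup.mk' ⁅K, K⁆) :
      Subgroup (X ⧸ ⁅K, K⁆)) : Set (X ⧸ ⁅K, K⁆)) :=
    Cfsg.Agent.Lib.Helper42.commutator_le_centralizer_of_cyclic_normal _
  have h3 : ⁅K, P⁆ ≤ ⁅K, K⁆ := by
    rw [← QuotientGroup.ker_mk' ⁅K, K⁆, ← Subgroup.map_eq_bot_iff, Subgroup.map_commutator,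
      Subgroup.commutator_eq_bot_iff_le_centralizer, Subgroup.le_centralizer_iff]
    refine le_trans ?_ h2
    refine (Subgroup.map_mono hPX).trans ?_
    rw [_root_.commutator_def, Subgroup.map_commutator, _root_.commutator_def]
    exact Subgroup.commutator_mono le_top le_top
  have h4 : ⁅⁅K, K⁆, P⁆ = ⊥ := by
    rw [Subgroup.commutator_eq_bot_iff_le_centralizer, Subgroup.le_centralizer_iff]
    exact hPX.trans h1
  have hPK : P ≤ normalizer (K : Set X) := by rw [normalizer_eq_top]; exact le_top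
  obtain ⟨k, hk⟩ := IsPGroup.iff_card.mp hP
  have h5 := Cfsg.Agent.Lib.Helper30.commutator_commutator_eq hPK
    (by rw [hk]; exact Nat.Coprime.pow_left k hK.symm) (Or.inr inferInstance)
  have h6 : ⁅K, P⁆ = ⊥ := by
    rw [← h5, eq_bot_iff, ← h4]
    exact Subgroup.commutator_mono h3 le_rfl
  rw [Subgroup.commutator_eq_bot_iff_le_centralizer, Subgroup.le_centralizer_iff] at h6
  exact h6

end Cfsg.Agent.Lib.Helper3
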