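import Cfsg.Prelude
import Cfsg.Agent.Lib.Helper3.BG36Series
import Cfsg.Agent.Lib.Helper70.Wielandt

/-!
# Bender–Glauberman 3.6 (S1444): the key claim `P₁ ≤ C(K₀)`
-/

set_option autoImplicit false

namespace Cfsg.Agent.Lib.Helper3

open Subgroup Cfsg
open Cfsg.Agent.Lib.Helper30 (cj)
open scoped commutatorElement

universe u

/-- The statement of the "core" module-theoretic lemma, at universe `u`. -/
def Core36 : Prop :=
  ∀ (G : Type u) [Group G] [Finite G] {p r : ℕ} (_ : p.Prime) (_ : r.Prime) (_ : p ≠ 2)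
    (_ : r ≠ 2) (_ : p ≠ r) (V K T : Subgroup G) (a : G) (_ : orderOf a = r)
    (_ : IsElementaryAbelian p V) (_ : Group.IsSolvable K) (_ : Odd (Nat.card K))
    (_ : (Nat.card K).Coprime p) (_ : (Nat.card K).Coprime r) (_ : IsPGroup p T)
    (_ : K ≤ normalizer (V : Set G)) (_ : T ≤ normalizer (V : Set G))
    (_ : a ∈ normalizer (V : Set G)) (_ : T ≤ normalizer (K : Set G))
    (_ : a ∈ normalizer (K : Set G)) (_ : a ∈ normalizer (T : Set G))
    (_ : K ⊓ centralizer (V : Set G) = ⊥) (_ : T ⊓ centralizer ({a} : Set G) = ⊥)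
    (_ : IsZGroup ↥(K ⊓ centralizer ({a} : Set G))) (_ : ¬ T ≤ centralizer (K : Set G)),
    p ^ 2 ≤ Nat.card ↥(V ⊓ centralizer ({a} : Set G))

/-- The statement of S3769, at universe `u`. -/
def FG36 : Prop :=
  ∀ (X : Type u) [Group X] [Finite X] (G : Subgroup X) (_ : Group.IsSolvable G)
    (_ : Odd (Nat.card G)) (V : Subgroup X) {ℓ : ℕ} (_ : ℓ.Prime)
    (_ : Cfsg.IsElementaryAbelian ℓ V) (_ : ¬ ℓ ∣ Nat.card G)
    (_ : G ≤ Subgroup.normalizer (V : Set X)) (K R : Subgroup X) (_ : K ≤ G)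
    (_ : G ≤ Subgroup.normalizer (K : Set X)) (_ : (Nat.card K).Coprime (K.relIndex G))
    (_ : R ≤ G) (_ : (Nat.card R).Prime) (_ : K ⊓ R = ⊥) (_ : K ⊔ R = G)
    (_ : V ⊓ Subgroup.centralizer (R : Set X) = ⊥), ⁅R, K⁆ ≤ Subgroup.centralizer (V : Set X)

theorem exists_orderOf_eq_of_ne_bot {G : Type*} [Group G] [Finite G] {p : ℕ} [hp : Fact p.Prime]
    {A : Subgroup G} (hA : IsPGroup p A) (hA1 : A ≠ ⊥) : ∃ x ∈ A, orderOf x = p := by
  obtain ⟨n, hn⟩ := IsPGroup.iff_card.mp hA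
  have hn0 : n ≠ 0 := by
    rintro rfl
    exact hA1 (Subgroup.card_eq_one.mp (by simpa using hn))
  obtain ⟨x, hx⟩ := exists_prime_orderOf_dvd_card' (G := A) p (hn ▸ dvd_pow_self p hn0)
  exact ⟨x, x.2, by rwa [Subgroup.orderOf_coe]⟩

/-- two nontrivial subgroups of a cyclic `p`-group meet nontrivially. -/
theorem inf_ne_bot_of_isCyclic_isPGroup {G : Type*} [Group G] [Finite G] {p : ℕ}
    [hp : Fact p.Prime] (C A B : Subgroup G) (hC : IsCyclic C) (hCp : IsPGroup p C) (hA : A ≤ C)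
    (hB : B ≤ C) (hA1 : A ≠ ⊥) (hB1 : B ≠ ⊥) : A ⊓ B ≠ ⊥ := by
  obtain ⟨x, hx, hxo⟩ := exists_orderOf_eq_of_ne_bot (hCp.to_le hA) hA1
  obtain ⟨y, hy, hyo⟩ := exists_orderOf_eq_of_ne_bot (hCp.to_le hB) hB1
  have e : zpowers (⟨x, hA hx⟩ : C) = zpowers (⟨y, hB hy⟩ : C) := by
    apply Cfsg.Agent.Lib.Helper70.eq_of_card_eq_of_isCyclic
    rw [Nat.card_zpowers, Nat.card_zpowers, Subgroup.orderOf_mk, Subgroup.orderOf_mk, hxo, hyo]
  have h1 : (⟨x, hA hx⟩ : C) ∈ zpowers (⟨y, hB hy⟩ : C) := e ▸ mem_zpowers _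
  obtain ⟨k, hk⟩ := mem_zpowers_iff.mp h1
  have h2 : y ^ k = x := by simpa using congrArg Subtype.val hk
  intro hbot
  have h3 : x ∈ A ⊓ B := ⟨hx, h2 ▸ B.zpow_mem hy k⟩
  rw [hbot, mem_bot] at h3
  rw [h3, orderOf_one] at hxo
  exact hp.out.one_lt.ne hxo

theorem card_le_of_isCyclic_of_pow_eq_one {G : Type*} [Group G] {p : ℕ} (hp : 0 < p)
    (A : Subgroup G) (hA : IsCyclic A) (hexp : ∀ x ∈ A, x ^ p = 1) : Nat.card A ≤ p := by
  obtain ⟨g, hg⟩ := hA.exists_generator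
  rw [← orderOf_eq_card_of_forall_mem_zpowers hg]
  apply Nat.le_of_dvd hp
  apply orderOf_dvd_of_pow_eq_one
  exact Subtype.ext (by simpa using hexp g g.2)

/-- Case (i): `a` has no fixed points on `V`. -/
theorem claim36_fpf (hf : FG36.{u}) {G : Type u} [Group G] [Finite G] [Group.IsSolvable G]
    (hodd : Odd (Nat.card G)) {H R : Subgroup G} {a : G} {r p : ℕ} [hp : Fact p.Prime]
    (h : Hyp36 H R a r) (hpr : p ≠ r)
    (V K₀ P₁ : Subgroup G) [hVn : V.Normal] (hV : IsElementaryAbelian p V)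
    (hK₀H : K₀ ≤ H) (hK₀p : (Nat.card K₀).Coprime p) (haK₀ : a ∈ normalizer (K₀ : Set G))
    (hKn : (V ⊔ K₀).Normal) (hD : K₀ ⊓ centralizer (V : Set G) = ⊥)
    (hVK₀ : V ⊓ K₀ = ⊥) (hP₁H : P₁ ≤ H) (hP₁ : IsPGroup p P₁)
    (hP₁K₀ : P₁ ≤ normalizer (K₀ : Set G))
    (hCV : V ⊓ centralizer ({a} : Set G) = ⊥) :
    P₁ ≤ centralizer (K₀ : Set G) := by
  have hAK₀ : zpowers a ≤ normalizer (K₀ : Set G) := zpowers_le.mpr haK₀
  have hcardA : Nat.card (zpowers a) = r := by rw [Nat.card_zpowers, h.order]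
  have hcopAK₀ : (Nat.card (zpowers a)).Coprime (Nat.card K₀) :=
    Nat.Coprime.coprime_dvd_left (card_dvd_of_le (zpowers_le.mpr h.mem))
      (Nat.Coprime.coprime_dvd_right (card_dvd_of_le hK₀H) h.cop.symm)
  have hcardS : Nat.card ↥(K₀ ⊔ zpowers a) = r * Nat.card K₀ := by
    rw [sup_comm, Cfsg.Agent.Lib.Helper1.card_sup_of_coprime_le_normalizer hAK₀ hcopAK₀, hcardA]
  have hcomm : ⁅zpowers a, K₀⁆ ≤ centralizer (V : Set G) := by
    apply hf G (K₀ ⊔ zpowers a) inferInstance (Odd.of_dvd_nat hodd (card_subgroup_dvd_card _)) V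
      hp.out hV _ (by rw [normalizer_eq_top]; exact le_top) K₀ (zpowers a) le_sup_left
      (sup_le le_normalizer hAK₀) _ le_sup_right (by rw [hcardA]; exact h.prime)
      (disjoint_of_coprime_natCard hcopAK₀.symm).eq_bot rfl
    · rw [eq_bot_iff, ← hCV]
      exact inf_le_inf_left _ (centralizer_le (by
        intro x hx
        rw [Set.mem_singleton_iff.mp hx]
        exact mem_zpowers a))
    · rw [hcardS]
      intro hdvd
      rcases (Nat.Prime.dvd_mul hp.out).mp hdvd with h1 | h1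
      · exact hpr ((Nat.prime_dvd_prime_iff_eq hp.out h.prime).mp h1)
      · exact hp.out.one_lt.ne' (Nat.Coprime.eq_one_of_dvd hK₀p.symm h1)
    · rw [sup_comm, Cfsg.Agent.Lib.Helper1.relIndex_sup_right_of_le_normalizer hAK₀]
      exact Nat.Coprime.coprime_dvd_right (relIndex_dvd_card _ _) hcopAK₀.symm
  have hcomm2 : ⁅zpowers a, K₀⁆ = ⊥ := by
    rw [eq_bot_iff, ← hD]
    refine le_inf ?_ hcomm
    rw [commutator_comm]
    exact Cfsg.Agent.Lib.Helper30.commutator_le_of_le_normalizer hAK₀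
  have hK₀a : K₀ ≤ centralizer ({a} : Set G) := by
    rw [commutator_eq_bot_iff_le_centralizer, le_centralizer_iff] at hcomm2
    exact hcomm2.trans (centralizer_le (by
      intro x hx
      rw [Set.mem_singleton_iff.mp hx]
      exact mem_zpowers a))
  have hZ := h.zgroup
  have hK₀Z : IsZGroup ↥K₀ :=
    IsZGroup.of_injective (f := Subgroup.inclusion (le_inf hK₀H hK₀a))
      (Subgroup.inclusion_injective _)
  have hsurj := QuotientGroup.mk'_surjective V
  have hmapeq : (V ⊔ K₀).map (QuotientGroup.mk' V) = K₀.map (QuotientGroup.mk' V) := by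
    rw [Subgroup.map_sup, (Subgroup.map_eq_bot_iff V).mpr (QuotientGroup.ker_mk' V).ge, bot_sup_eq]
  have hKbn : (K₀.map (QuotientGroup.mk' V)).Normal := hmapeq ▸ hKn.map _ hsurj
  have hKbZ : IsZGroup ↥(K₀.map (QuotientGroup.mk' V)) :=
    IsZGroup.of_surjective (f := (QuotientGroup.mk' V).subgroupMap K₀)
      (MonoidHom.subgroupMap_surjective _ _)
  have hPb : P₁.map (QuotientGroup.mk' V) ≤ commutator (G ⧸ V) := by
    have h1 : P₁ ≤ ⁅H, R⁆ := h.comm.symm ▸ hP₁H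
    refine (Subgroup.map_mono h1).trans ?_
    rw [Subgroup.map_commutator, _root_.commutator_def]
    exact Subgroup.commutator_mono le_top le_top
  have h7 := le_centralizer_of_isZGroup36 (K₀.map (QuotientGroup.mk' V))
    (P₁.map (QuotientGroup.mk' V)) hKbZ (hP₁.map _)
    (Nat.Coprime.coprime_dvd_left (card_map_dvd _ _) hK₀p) hPb
  rw [le_centralizer_iff, ← commutator_eq_bot_iff_le_centralizer, ← Subgroup.map_commutator,
    Subgroup.map_eq_bot_iff, QuotientGroup.ker_mk'] at h7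
  have h8 : ⁅K₀, P₁⁆ = ⊥ := by
    rw [eq_bot_iff, ← hVK₀]
    exact le_inf h7 (Cfsg.Agent.Lib.Helper30.commutator_le_of_le_normalizer hP₁K₀)
  rw [commutator_eq_bot_iff_le_centralizer, le_centralizer_iff] at h8
  exact h8

/-- Case (ii): `a` has fixed points on `V`. -/
theorem claim36_fix (hc : Core36.{u}) {G : Type u} [Group G] [Finite G] [Group.IsSolvable G]
    (hodd : Odd (Nat.card G)) {H R : Subgroup G} {a : G} {r p : ℕ} [hp : Fact p.Prime]
    (h : Hyp36 H R a r) (hpr : p ≠ r) (hp2 : p ≠ 2) (hr2 : r ≠ 2)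
    (V K₀ P₁ : Subgroup G) [hVn : V.Normal] (hV : IsElementaryAbelian p V) (hVH : V ≤ H)
    (hK₀H : K₀ ≤ H) (hK₀p : (Nat.card K₀).Coprime p) (haK₀ : a ∈ normalizer (K₀ : Set G))
    (hD : K₀ ⊓ centralizer (V : Set G) = ⊥) (hN : V ⊓ normalizer (K₀ : Set G) = ⊥)
    (hP₁H : P₁ ≤ H) (hP₁ : IsPGroup p P₁) (hP₁K₀ : P₁ ≤ normalizer (K₀ : Set G))
    (haP₁ : a ∈ normalizer (P₁ : Set G)) (hCV : V ⊓ centralizer ({a} : Set G) ≠ ⊥) :
    P₁ ≤ centralizer (K₀ : Set G) := by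
  have hZ := h.zgroup
  have hVp : IsPGroup p V := by
    intro x
    exact ⟨1, Subtype.ext (by simpa using hV.2 x x.2)⟩
  have hSp : IsPGroup p ↥(V ⊔ P₁) := hVp.to_sup_of_normal_left hP₁
  have hle : (V ⊔ P₁) ⊓ centralizer ({a} : Set G) ≤ H ⊓ centralizer ({a} : Set G) :=
    inf_le_inf_right _ (sup_le hVH hP₁H)
  have hcyc : IsCyclic ↥((V ⊔ P₁) ⊓ centralizer ({a} : Set G)) := by
    have hpg : IsPGroup p ↥(((V ⊔ P₁) ⊓ centralizer ({a} : Set G)).subgroupOf
        (H ⊓ centralizer ({a} : Set G))) := (hSp.to_le inf_le_left).comap_subtype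
    have := hpg.isCyclic_of_isZGroup
    exact (Subgroup.subgroupOfEquivOfLe hle).isCyclic.mp this
  have hfpf : P₁ ⊓ centralizer ({a} : Set G) = ⊥ := by
    by_contra hne
    apply inf_ne_bot_of_isCyclic_isPGroup _ (V ⊓ centralizer ({a} : Set G))
      (P₁ ⊓ centralizer ({a} : Set G)) hcyc (hSp.to_le inf_le_left)
      (inf_le_inf_right _ le_sup_left) (inf_le_inf_right _ le_sup_right) hCV hne
    rw [eq_bot_iff, ← hN]
    exact le_inf (inf_le_left.trans inf_le_left) ((inf_le_right.trans inf_le_left).trans hP₁K₀)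
  by_contra hnc
  have hnorm : ∀ Y : Subgroup G, Y ≤ normalizer (V : Set G) := by
    intro Y; rw [normalizer_eq_top]; exact le_top
  have h1 := hc G hp.out h.prime hp2 hr2 hpr V K₀ P₁ a h.order hV inferInstance
    (Odd.of_dvd_nat hodd (card_subgroup_dvd_card _)) hK₀p
    (by
      have h2 : r ∣ Nat.card R := by
        have h3 := orderOf_dvd_natCard (⟨a, h.mem⟩ : R)
        rwa [Subgroup.orderOf_mk, h.order] at h3
      exact Nat.Coprime.coprime_dvd_left (card_dvd_of_le hK₀H)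
        (Nat.Coprime.coprime_dvd_right h2 h.cop))
    hP₁ (hnorm _) (hnorm _) (hnorm ⊤ (mem_top a)) hP₁K₀ haK₀ haP₁ hD hfpf
    (IsZGroup.of_injective (f := Subgroup.inclusion (inf_le_inf_right _ hK₀H))
      (Subgroup.inclusion_injective _)) hnc
  have hcyc2 : IsCyclic ↥(V ⊓ centralizer ({a} : Set G)) :=
    Subgroup.isCyclic_of_le (inf_le_inf_right _ (le_sup_left : V ≤ V ⊔ P₁))
  have h2 := card_le_of_isCyclic_of_pow_eq_one hp.out.pos _ hcyc2 (fun x hx => hV.2 x hx.1)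
  have h3 := hp.out.two_le
  nlinarith

end Cfsg.Agent.Lib.Helper3
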