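import Cfsg.Prelude
import Cfsg.Agent.Lib.Helper3.BG36Claim
import Cfsg.Agent.Lib.Helper14.PConstrained

/-!
# Bender–Glauberman 3.6 (S1444): local analysis and the induction
-/

set_option autoImplicit false

namespace Cfsg.Agent.Lib.Helper3

open Subgroup Cfsg
open Cfsg.Agent.Lib.Helper30 (cj)
open Cfsg.Agent.Lib.Helper12 (IsMinNormal)
open scoped commutatorElement

universe u

/-- from `P₁ ≤ C(K₀)` to the normal Sylow subgroup. -/
theorem loc36_final {G : Type u} [Group G] [Finite G] {p : ℕ} [hp : Fact p.Prime]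
    (V K₀ P₁ L H : Subgroup G) [hVn : V.Normal] [hLn : L.Normal] (hVp : IsPGroup p V)
    (hP₁ : IsPGroup p P₁) (hK₀p : (Nat.card K₀).Coprime p) (hVL : V ≤ L) (hK₀L : K₀ ≤ L)
    (hP₁L : P₁ ≤ L) (hL : L ≤ V ⊔ (P₁ ⊔ K₀)) (hLH : L ≤ H) (hLp : (L.relIndex H).Coprime p)
    (hcen : P₁ ≤ centralizer (K₀ : Set G)) : Series36 p ⊥ H := by
  have hSp : IsPGroup p ↥(V ⊔ P₁) := hVp.to_sup_of_normal_left hP₁
  have hSL : V ⊔ P₁ ≤ L := sup_le hVL hP₁L
  have hK₀S : K₀ ≤ normalizer ((V ⊔ P₁ : Subgroup G) : Set G) := by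
    apply Cfsg.Agent.Lib.Helper30.le_normalizer_sup
    · rw [normalizer_eq_top]; exact le_top
    · exact (le_centralizer_iff.mp hcen).trans (centralizer_le_normalizer _)
  have hLeq : K₀ ⊔ (V ⊔ P₁) = L := by
    apply le_antisymm (sup_le hK₀L hSL)
    refine hL.trans (sup_le (le_sup_left.trans le_sup_right) (sup_le ?_ le_sup_left))
    exact le_sup_right.trans le_sup_right
  have hLS : L ≤ normalizer ((V ⊔ P₁ : Subgroup G) : Set G) := by
    rw [← hLeq]; exact sup_le hK₀S le_normalizer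
  have hidx : ((V ⊔ P₁).relIndex L).Coprime p := by
    rw [← hLeq, Cfsg.Agent.Lib.Helper1.relIndex_sup_right_of_le_normalizer hK₀S]
    exact Nat.Coprime.coprime_dvd_left (relIndex_dvd_card _ _) hK₀p
  have hsyl : Cfsg.Agent.Lib.Helper30.IsSylowIn p (V ⊔ P₁) L :=
    ⟨hSL, hSp, fun hd => hp.out.one_lt.ne' (Nat.Coprime.eq_one_of_dvd hidx.symm hd)⟩
  have hSn : (V ⊔ P₁).Normal := by
    refine ⟨fun x hx g => ?_⟩
    have h1 : cj g (V ⊔ P₁) ≤ L := by
      have := Cfsg.Agent.Lib.Helper30.cj_mono g hSL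
      rwa [Cfsg.Agent.Lib.Helper30.cj_normal g L] at this
    have h2 : IsPGroup p ↥((V ⊔ P₁) ⊔ cj g (V ⊔ P₁)) :=
      hSp.to_sup_of_normal_left' (Cfsg.Agent.Lib.Helper30.isPGroup_cj g hSp) (h1.trans hLS)
    have h3 := hsyl.eq_of_le (sup_le hSL h1) h2 le_sup_left
    have h4 : cj g (V ⊔ P₁) ≤ V ⊔ P₁ := le_sup_right.trans h3.le
    exact h4 (Cfsg.Agent.Lib.Helper30.conj_mem_cj hx)
  obtain ⟨k, hk⟩ := IsPGroup.iff_card.mp hSp
  refine ⟨⊥, V ⊔ P₁, inferInstance, hSn, le_rfl, bot_le, hSL.trans hLH, ?_, ⟨k, ?_⟩, ?_⟩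
  · rw [relIndex_bot_left, card_bot]; exact Nat.coprime_one_left p
  · rw [relIndex_bot_left, hk]
  · rw [← relIndex_mul_relIndex _ _ _ hSL hLH]
    exact Nat.Coprime.mul_left hidx hLp

theorem loc36 (hc : Core36.{u}) (hf : FG36.{u}) {G : Type u} [Group G] [Finite G]
    [Group.IsSolvable G] (hodd : Odd (Nat.card G)) {H R : Subgroup G} {a : G} {r p : ℕ}
    [hp : Fact p.Prime] (h : Hyp36 H R a r)
    (hOp : ∀ D : Subgroup G, D.Normal → D ≤ H → (Nat.card D).Coprime p → D = ⊥)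
    (V : Subgroup G) (hVmin : IsMinNormal V) (hV : IsElementaryAbelian p V) (hVH : V ≤ H)
    (hser : Series36 p V H) : Series36 p ⊥ H := by
  obtain ⟨K, L, hKn, hLn, hVK, hKL, hLH, hKp, ⟨m, hm⟩, hLp⟩ := hser
  have hVn : V.Normal := hVmin.1
  have hVc := hV.1
  have hVp : IsPGroup p V := by
    intro x
    exact ⟨1, Subtype.ext (by simpa using hV.2 x x.2)⟩
  have hcopRK : (Nat.card R).Coprime (Nat.card K) :=
    Nat.Coprime.coprime_dvd_right (card_dvd_of_le (hKL.trans hLH)) h.cop.symm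
  obtain ⟨K₀, hK₀K, hK₀p, hRK₀, hdisj, hsup, hfrat⟩ :=
    exists_invariant_compl36 V K R hV.1 hVp hVK hKp hcopRK
  have hK₀H : K₀ ≤ H := hK₀K.trans (hKL.trans hLH)
  -- `K₀ ⊓ C(V)` is normal, hence trivial
  have hDn : (K₀ ⊓ centralizer (V : Set G)).Normal := by
    refine ⟨fun x hx g => ?_⟩
    obtain ⟨v, hv, n, hn, rfl⟩ := hfrat g
    have h1 : n * x * n⁻¹ ∈ K₀ := (mem_normalizer_iff.mp hn x).mp hx.1
    have h2 : n * x * n⁻¹ ∈ centralizer (V : Set G) :=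
      (inferInstance : (centralizer (V : Set G)).Normal).conj_mem x hx.2 n
    have h3 : v * n * x * (v * n)⁻¹ = n * x * n⁻¹ := by
      have := mem_centralizer_iff.mp h2 v hv
      calc v * n * x * (v * n)⁻¹ = (v * (n * x * n⁻¹)) * v⁻¹ := by group
        _ = n * x * n⁻¹ := by rw [this]; group
    rw [h3]
    exact ⟨h1, h2⟩
  have hD : K₀ ⊓ centralizer (V : Set G) = ⊥ :=
    hOp _ hDn (inf_le_left.trans hK₀H)
      (Nat.Coprime.coprime_dvd_left (card_dvd_of_le inf_le_left) hK₀p)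
  -- `C_V(K₀)` is normal
  have hEn : (V ⊓ centralizer (K₀ : Set G)).Normal := by
    refine ⟨fun x hx g => ?_⟩
    obtain ⟨v, hv, n, hn, rfl⟩ := hfrat g
    have h1 : n * x * n⁻¹ ∈ V := hVn.conj_mem x hx.1 n
    have h2 : n * x * n⁻¹ ∈ centralizer (K₀ : Set G) := by
      rw [mem_centralizer_iff]
      intro k hk
      have hk' : n⁻¹ * k * n ∈ K₀ := by
        have := (mem_normalizer_iff.mp (inv_mem hn) k).mp hk
        simpa using this
      have := mem_centralizer_iff.mp hx.2 _ hk'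
      calc k * (n * x * n⁻¹) = n * ((n⁻¹ * k * n) * x) * n⁻¹ := by group
        _ = n * x * n⁻¹ * k := by rw [this]; group
    have h3 : v * n * x * (v * n)⁻¹ = n * x * n⁻¹ := by
      have : v * (n * x * n⁻¹) = (n * x * n⁻¹) * v :=
        congrArg Subtype.val (mul_comm' (⟨v, hv⟩ : V) ⟨_, h1⟩)
      calc v * n * x * (v * n)⁻¹ = (v * (n * x * n⁻¹)) * v⁻¹ := by group
        _ = n * x * n⁻¹ := by rw [this]; group
    rw [h3]
    exact ⟨h1, h2⟩
  obtain ⟨kV, hkV⟩ := IsPGroup.iff_card.mp hVp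
  rcases hVmin.2.2 _ hEn inf_le_left with hE | hE
  swap
  · -- `K₀ = ⊥`
    have h1 : K₀ ≤ centralizer (V : Set G) := le_centralizer_iff.mp (inf_eq_left.mp hE)
    have h2 : K₀ = ⊥ := by rw [← hD]; exact (inf_eq_left.mpr h1).symm
    have h3 : K = V := by rw [← hsup, h2, sup_bot_eq]
    refine ⟨⊥, L, inferInstance, hLn, le_rfl, bot_le, hLH, ?_, ⟨kV + m, ?_⟩, hLp⟩
    · rw [relIndex_bot_left, card_bot]; exact Nat.coprime_one_left p
    · rw [relIndex_bot_left, Cfsg.Agent.Lib.Helper30.card_eq_card_mul_relIndex hKL, hm, h3, hkV,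
        pow_add]
  -- main case
  have hnormV : ∀ Y : Subgroup G, Y ≤ normalizer (V : Set G) := by
    intro Y; rw [normalizer_eq_top]; exact le_top
  have hN : V ⊓ normalizer (K₀ : Set G) = ⊥ := by
    rw [eq_bot_iff, ← hE]
    intro x hx
    exact ⟨hx.1, Cfsg.Agent.Lib.Helper30.mem_centralizer_of_mem_normalizer (hnormV K₀) hdisj
      hx.1 hx.2⟩
  have hRL₁ : R ≤ normalizer ((L ⊓ normalizer (K₀ : Set G) : Subgroup G) : Set G) :=
    Cfsg.Agent.Lib.Helper30.le_normalizer_inf (by rw [normalizer_eq_top]; exact le_top)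
      (Cfsg.Agent.Lib.Helper30.normalizer_le_normalizer_normalizer hRK₀)
  obtain ⟨P₁, hP₁syl, hRP₁⟩ := Cfsg.Agent.Lib.Helper30.exists_invariant_isSylowIn hRL₁
    (Nat.Coprime.coprime_dvd_right (card_dvd_of_le (inf_le_left.trans hLH)) h.cop.symm)
    (Or.inl inferInstance) p
  have hP₁L : P₁ ≤ L := hP₁syl.le.trans inf_le_left
  have hP₁N : P₁ ≤ normalizer (K₀ : Set G) := hP₁syl.le.trans inf_le_right
  have hP₁ := hP₁syl.isPGroup
  -- arithmetic
  have hpV : p ∣ Nat.card V := by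
    have hk0 : kV ≠ 0 := by
      rintro rfl
      exact hVmin.2.1 (Subgroup.card_eq_one.mp (by simpa using hkV))
    exact hkV ▸ dvd_pow_self p hk0
  have hp2 : p ≠ 2 := by
    rintro rfl
    have : 2 ∣ Nat.card G := hpV.trans (card_subgroup_dvd_card _)
    exact (Nat.not_even_iff_odd.mpr hodd) (even_iff_two_dvd.mpr this)
  have hrR : r ∣ Nat.card R := by
    have h3 := orderOf_dvd_natCard (⟨a, h.mem⟩ : R)
    rwa [Subgroup.orderOf_mk, h.order] at h3
  have hr2 : r ≠ 2 := by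
    rintro rfl
    have : 2 ∣ Nat.card G := hrR.trans (card_subgroup_dvd_card _)
    exact (Nat.not_even_iff_odd.mpr hodd) (even_iff_two_dvd.mpr this)
  have hpr : p ≠ r := by
    rintro rfl
    exact hp.out.one_lt.ne' (Nat.Coprime.eq_one_of_dvd
      (Nat.Coprime.coprime_dvd_left (hpV.trans (card_dvd_of_le hVH)) h.cop) hrR)
  -- the claim
  have hcen : P₁ ≤ centralizer (K₀ : Set G) := by
    by_cases hCV : V ⊓ centralizer ({a} : Set G) = ⊥
    · exact claim36_fpf hf hodd h hpr V K₀ P₁ hV hK₀H hK₀p (hRK₀ h.mem) (hsup ▸ hKn) hD hdisj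
        (hP₁L.trans hLH) hP₁ hP₁N hCV
    · exact claim36_fix hc hodd h hpr hp2 hr2 V K₀ P₁ hV hVH hK₀H hK₀p (hRK₀ h.mem) hD hN
        (hP₁L.trans hLH) hP₁ hP₁N (hRP₁ h.mem) hCV
  -- `L₁ = P₁ K₀`
  have hKL₁ : K ⊓ (L ⊓ normalizer (K₀ : Set G)) = K₀ := by
    apply le_antisymm
    · intro x hx
      have hxK : x ∈ V ⊔ K₀ := hsup ▸ hx.1
      obtain ⟨v, hv, k, hk, rfl⟩ := Cfsg.Agent.Lib.Helper30.mem_sup_normal_left.mp hxK
      have hvN : v ∈ normalizer (K₀ : Set G) := by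
        have h1 := (normalizer (K₀ : Set G)).mul_mem hx.2.2 (inv_mem (le_normalizer hk))
        simpa using h1
      have hv1 : v ∈ V ⊓ normalizer (K₀ : Set G) := ⟨hv, hvN⟩
      rw [hN, mem_bot] at hv1
      rw [hv1, one_mul]; exact hk
    · exact le_inf hK₀K (le_inf (hK₀K.trans hKL) le_normalizer)
  obtain ⟨j, hj⟩ : ∃ j, K₀.relIndex (L ⊓ normalizer (K₀ : Set G)) = p ^ j := by
    have h1 : K₀.relIndex (L ⊓ normalizer (K₀ : Set G)) =
        K.relIndex ((L ⊓ normalizer (K₀ : Set G)) ⊔ K) := by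
      rw [relIndex_sup_right, ← inf_relIndex_right K, hKL₁]
    have h2 : K.relIndex ((L ⊓ normalizer (K₀ : Set G)) ⊔ K) ∣ K.relIndex L :=
      Dvd.intro _ (relIndex_mul_relIndex K _ L le_sup_right (sup_le inf_le_left hKL))
    rw [← h1, hm] at h2
    obtain ⟨j, -, hj⟩ := (Nat.dvd_prime_pow hp.out).mp h2
    exact ⟨j, hj⟩
  obtain ⟨P', hP'⟩ := hP₁syl.exists_sylow
  have hL₁ := Cfsg.Agent.Lib.Helper14.le_sylow_sup_of_relIndex _ _ hj P'
  rw [hP'] at hL₁
  have hL : L ≤ V ⊔ (P₁ ⊔ K₀) := by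
    intro g hg
    obtain ⟨v, hv, n, hn, rfl⟩ := hfrat g
    have hnL : n ∈ L := by
      have := L.mul_mem (inv_mem (hKL (hVK hv))) hg
      simpa using this
    exact mul_mem (le_sup_left (a := V) hv) (le_sup_right (a := V) (hL₁ ⟨hnL, hn⟩))
  exact loc36_final V K₀ P₁ L H hVp hP₁ hK₀p (hVK.trans hKL) (hK₀K.trans hKL) hP₁L hL hLH hLp hcen

end Cfsg.Agent.Lib.Helper3
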