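import Cfsg.Prelude
import Cfsg.Agent.Lib.Helper3.BG36Loc

/-!
# Bender–Glauberman 3.6 (S1444): the induction and the final statement, modulo `Core36`, `FG36`
-/

set_option autoImplicit false

namespace Cfsg.Agent.Lib.Helper3

open Subgroup Cfsg
open Cfsg.Agent.Lib.Helper30 (cj)
open Cfsg.Agent.Lib.Helper12 (IsMinNormal)
open scoped commutatorElement

universe u

theorem main36 (hc : Core36.{u}) (hf : FG36.{u}) (p : ℕ) [hp : Fact p.Prime] :
    ∀ (n : ℕ) (G : Type u) [Group G] [Finite G] [Group.IsSolvable G], Nat.card G = n →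
      Odd (Nat.card G) → ∀ (H R : Subgroup G) (a : G) (r : ℕ), Hyp36 H R a r →
        Series36 p ⊥ H := by
  intro n
  induction n using Nat.strong_induction_on with
  | _ n ih =>
    intro G _ _ _ hn hodd H R a r h
    by_cases hH : H = ⊥
    · refine ⟨⊥, ⊥, inferInstance, inferInstance, le_rfl, le_rfl, bot_le, ?_, ⟨0, ?_⟩, ?_⟩
      · rw [relIndex_bot_left, card_bot]; exact Nat.coprime_one_left p
      · rw [relIndex_bot_left, card_bot, pow_zero]
      · rw [hH, relIndex_bot_left, card_bot]; exact Nat.coprime_one_left p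
    have key : ∀ N : Subgroup G, N.Normal → N ≤ H → N ≠ ⊥ → Series36 p N H := by
      intro N hNn hNH hN1
      apply Series36.of_quotient hNH
      have hcard := Subgroup.card_eq_card_quotient_mul_card_subgroup N
      refine ih (Nat.card (G ⧸ N)) ?_ (G ⧸ N) rfl ?_ _ _ _ r (h.map N hNH)
      · rw [← hn, hcard]
        have h1 : 1 < Nat.card N := by
          rcases Nat.lt_or_ge 1 (Nat.card N) with h2 | h2
          · exact h2
          · exfalso
            apply hN1
            apply Subgroup.card_eq_one.mp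
            have := Nat.card_pos (α := N)
            omega
        have h2 := Nat.card_pos (α := G ⧸ N)
        nlinarith
      · exact Odd.of_dvd_nat hodd (Dvd.intro _ hcard.symm)
    by_cases hOp : ∀ D : Subgroup G, D.Normal → D ≤ H → (Nat.card D).Coprime p → D = ⊥
    · obtain ⟨V, hVH, hVmin⟩ := Cfsg.Agent.Lib.Helper12.exists_minNormal_le H h.normal hH
      obtain ⟨ℓ, hℓ, hexp, hcomm⟩ := hVmin.exists_prime
      have hℓp : ℓ = p := by
        by_contra hne
        apply hVmin.2.1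
        apply hOp V hVmin.1 hVH
        have hVℓ : IsPGroup ℓ V := by
          intro x
          exact ⟨1, Subtype.ext (by simpa using hexp x x.2)⟩
        have := Fact.mk hℓ
        obtain ⟨k, hk⟩ := IsPGroup.iff_card.mp hVℓ
        rw [hk]
        exact Nat.Coprime.pow_left k ((Nat.coprime_primes hℓ hp.out).mpr hne)
      subst hℓp
      exact loc36 hc hf hodd h hOp V hVmin ⟨hcomm, hexp⟩ hVH (key V hVmin.1 hVH hVmin.2.1)
    · push Not at hOp
      obtain ⟨D, hDn, hDH, hDp, hD1⟩ := hOp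
      exact (key D hDn hDH hD1).of_coprime hDp

/-- B-G Theorem 3.6, modulo `Core36` and `FG36`. -/
theorem bg36 (hc : Core36.{u}) (hf : FG36.{u}) {G : Type u} [Group G] [Finite G]
    [Group.IsSolvable G] (hodd : Odd (Nat.card G)) (H R R₀ : Subgroup G) [hHn : H.Normal]
    (hHall : (Nat.card H).Coprime H.index) (hR : Subgroup.IsComplement' H R) (hR₀ : R₀ ≤ R)
    (hR₀p : (Nat.card R₀).Prime) (hZ : IsZGroup ↥(H ⊓ Subgroup.centralizer (R₀ : Set G)))
    (p : ℕ) [Fact p.Prime] : Cfsg.PLengthLE p 1 ↥⁅H, R⁆ := by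
  have hcop : (Nat.card H).Coprime (Nat.card R) := by
    rw [← hR.symm.index_eq_card]; exact hHall
  have hRH : R ≤ normalizer (H : Set G) := by rw [normalizer_eq_top]; exact le_top
  have hcc : ⁅⁅H, R⁆, R⁆ = ⁅H, R⁆ :=
    Cfsg.Agent.Lib.Helper30.commutator_commutator_eq hRH hcop.symm (Or.inl inferInstance)
  have hLH : ⁅H, R⁆ ≤ H := Subgroup.commutator_le_left H R
  -- the generator
  obtain ⟨a, haR₀, ha1⟩ : ∃ a ∈ R₀, a ≠ 1 := by
    by_contra hcon
    push Not at hcon
    have : R₀ = ⊥ := (Subgroup.eq_bot_iff_forall _).mpr hcon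
    rw [this, card_bot] at hR₀p
    exact Nat.not_prime_one hR₀p
  have hord : orderOf a = Nat.card R₀ := by
    have h1 : orderOf a ∣ Nat.card R₀ := by
      have := orderOf_dvd_natCard (⟨a, haR₀⟩ : R₀)
      rwa [Subgroup.orderOf_mk] at this
    rcases (Nat.dvd_prime hR₀p).mp h1 with h2 | h2
    · exact absurd (orderOf_eq_one_iff.mp h2) ha1
    · exact h2
  have hzp : zpowers a = R₀ :=
    Subgroup.eq_of_le_of_card_ge (zpowers_le.mpr haR₀) (by rw [Nat.card_zpowers, hord])
  have hcen : centralizer ({a} : Set G) ≤ centralizer (R₀ : Set G) := by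
    intro x hx
    rw [mem_centralizer_iff]
    intro y hy
    rw [← hzp] at hy
    obtain ⟨k, rfl⟩ := mem_zpowers_iff.mp hy
    have h1 : Commute a x := (mem_centralizer_singleton_iff.mp hx).symm
    exact (h1.zpow_left k).eq
  -- the group `M = [H, R] R`
  have hL : ⁅H, R⁆ ≤ ⁅H, R⁆ ⊔ R := le_sup_left
  have hRM : R ≤ ⁅H, R⁆ ⊔ R := le_sup_right
  have hMN : ⁅H, R⁆ ⊔ R ≤ normalizer ((⁅H, R⁆ : Subgroup G) : Set G) :=
    (sup_le_sup_right hLH R).trans (Cfsg.Agent.Lib.Helper1.sup_le_normalizer_commutator H R)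
  have hyp : Hyp36 (⁅H, R⁆.subgroupOf (⁅H, R⁆ ⊔ R)) (R.subgroupOf (⁅H, R⁆ ⊔ R))
      (⟨a, hRM (hR₀ haR₀)⟩ : ↥(⁅H, R⁆ ⊔ R)) (Nat.card R₀) := by
    refine ⟨Subgroup.normal_subgroupOf_of_le_normalizer hMN, ?_, ?_, ?_, ?_, hR₀p, ?_, ?_⟩
    · rw [← Subgroup.subgroupOf_sup hL hRM, subgroupOf_self]
    · rw [Cfsg.Agent.Lib.Helper30.card_subgroupOf hL, Cfsg.Agent.Lib.Helper30.card_subgroupOf hRM]
      exact Nat.Coprime.coprime_dvd_left (card_dvd_of_le hLH) hcop
    · apply Subgroup.map_injective (⁅H, R⁆ ⊔ R).subtype_injective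
      rw [Subgroup.map_commutator, map_subgroupOf_eq_of_le hL, map_subgroupOf_eq_of_le hRM, hcc]
    · exact mem_subgroupOf.mpr (hR₀ haR₀)
    · rw [Subgroup.orderOf_mk, hord]
    · let f : ↥(⁅H, R⁆.subgroupOf (⁅H, R⁆ ⊔ R) ⊓
          centralizer ({(⟨a, hRM (hR₀ haR₀)⟩ : ↥(⁅H, R⁆ ⊔ R))} : Set ↥(⁅H, R⁆ ⊔ R))) →*
          ↥(H ⊓ Subgroup.centralizer (R₀ : Set G)) :=
        ((⁅H, R⁆ ⊔ R).subtype.comp (Subgroup.subtype _)).codRestrict _ (by
          rintro ⟨x, hx1, hx2⟩
          refine ⟨hLH (mem_subgroupOf.mp hx1), hcen ?_⟩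
          show (x : G) ∈ centralizer ({a} : Set G)
          rw [mem_centralizer_singleton_iff]
          have := mem_centralizer_singleton_iff.mp hx2
          exact congrArg Subtype.val this)
      apply IsZGroup.of_injective (f := f)
      intro x y hxy
      have := congrArg (fun z : ↥(H ⊓ Subgroup.centralizer (R₀ : Set G)) => (z : G)) hxy
      exact Subtype.ext (Subtype.ext this)
  have hser := main36 hc hf p _ ↥(⁅H, R⁆ ⊔ R) rfl
    (Odd.of_dvd_nat hodd (card_subgroup_dvd_card _)) _ _ _ _ hyp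
  exact Cfsg.Agent.Lib.Helper66.pLengthLE_of_equiv (Subgroup.subgroupOfEquivOfLe hL) hser.pLengthLE

end Cfsg.Agent.Lib.Helper3
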