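import Cfsg.Prelude
import Cfsg.Agent.Lib.Helper3.BG36Main
import Cfsg.Agent.Lib.Helper69.BG36C
import Cfsg.Agent.Lib.Helper69.BG36E
import Cfsg.Agent.Lib.Helper56.BG36D

/-!
# Bender–Glauberman 3.6 (S1444): the core lemma from the rungs C, D, E
-/

set_option autoImplicit false

namespace Cfsg.Agent.Lib.Helper3

open Subgroup Cfsg
open Cfsg.Agent.Lib.Helper30 (cj)

/-- CORE = C + D + E -/
theorem core36 {G : Type*} [Group G] [Finite G] {p r : ℕ} (hp : p.Prime) (hr : r.Prime) (hp2 : p ≠ 2) (hr2 : r ≠ 2) (hpr : p ≠ r)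
    (V K T : Subgroup G) (a : G) (har : orderOf a = r)
    (hV : IsElementaryAbelian p V)
    (hK : Group.IsSolvable K) (hKodd : Odd (Nat.card K)) (hKp : (Nat.card K).Coprime p)
    (hKr : (Nat.card K).Coprime r)
    (hT : IsPGroup p T) (hKV : K ≤ normalizer (V : Set G)) (hTV : T ≤ normalizer (V : Set G))
    (haV : a ∈ normalizer (V : Set G)) (hTK : T ≤ normalizer (K : Set G))
    (haK : a ∈ normalizer (K : Set G)) (haT : a ∈ normalizer (T : Set G))
    (hfaith : K ⊓ centralizer (V : Set G) = ⊥) (hfpf : T ⊓ centralizer ({a} : Set G) = ⊥)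
    (hZ : IsZGroup ↥(K ⊓ centralizer ({a} : Set G)))
    (hnc : ¬ T ≤ centralizer (K : Set G)) :
    p ^ 2 ≤ Nat.card ↥(V ⊓ centralizer ({a} : Set G)) := by
  obtain ⟨T₁, Q, q, hq, hq2, hqp, hT₁T, haT₁, hQK, hT₁Q, haQ, hexp, hcl, hQT, hQ1, hTc, hmin⟩ :=
    Cfsg.Agent.Lib.Helper69.exists_HH_section hp K T a hK hKodd hKp hT hTK haK haT hnc
  have hT₁ : IsPGroup p T₁ := hT.to_le hT₁T
  have hfaithQ : Q ⊓ centralizer (V : Set G) = ⊥ :=
    le_bot_iff.mp (hfaith ▸ inf_le_inf_right _ hQK)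
  have hfpf₁ : T₁ ⊓ centralizer ({a} : Set G) = ⊥ :=
    le_bot_iff.mp (hfpf ▸ inf_le_inf_right _ hT₁T)
  have hQq : IsPGroup q Q := by
    intro x
    refine ⟨1, ?_⟩
    have := hexp x x.2
    ext
    simpa using this
  have hqr : q ≠ r := by
    rintro rfl
    have := Fact.mk hq
    have hne : Nat.card Q ≠ 1 := by
      intro h
      exact hQ1 ((Subgroup.card_eq_one).mp h)
    obtain ⟨n, hn⟩ := IsPGroup.iff_card.mp hQq
    have hn0 : n ≠ 0 := by
      rintro rfl
      exact hne (by simpa using hn)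
    have hdvd : q ∣ Nat.card K := by
      have h1 : q ∣ Nat.card Q := hn ▸ dvd_pow_self q hn0
      exact h1.trans (Subgroup.card_dvd_of_le hQK)
    have := Nat.Coprime.eq_one_of_dvd hKr.symm hdvd
    exact hq.one_lt.ne' this
  by_cases hab : ⁅Q, Q⁆ = ⊥
  · have hQe : IsElementaryAbelian q Q := by
      refine ⟨⟨⟨?_⟩⟩, hexp⟩
      intro x y
      have := (Subgroup.commutator_eq_bot_iff_le_centralizer.mp hab) x.2
      rw [Subgroup.mem_centralizer_iff] at this
      exact Subtype.ext (this y y.2).symm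
    exact Cfsg.Agent.Lib.Helper69.abelian_case hp hq hr hp2 hr2 hqp.symm hpr V Q T₁ a har hV hQe hT₁ (hQK.trans hKV)
      (hT₁T.trans hTV) haV hT₁Q haQ haT₁ hfaithQ hfpf₁ hTc hQT hQ1
  · have hcyc : IsCyclic ↥(Q ⊓ centralizer ({a} : Set G)) := by
      have := Fact.mk hq
      have hle : Q ⊓ centralizer ({a} : Set G) ≤ K ⊓ centralizer ({a} : Set G) :=
        inf_le_inf_right _ hQK
      have hpg : IsPGroup q ↥((Q ⊓ centralizer ({a} : Set G)).subgroupOf
          (K ⊓ centralizer ({a} : Set G))) :=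
        (hQq.to_le inf_le_left).comap_subtype
      have := hpg.isCyclic_of_isZGroup
      exact (Subgroup.subgroupOfEquivOfLe hle).isCyclic.mp this
    exact Cfsg.Agent.Lib.Helper56.nonabelian_case hp hq hr hq2 hr2 hqp.symm hpr hqr V Q T₁ a har hV hexp hT₁ (hQK.trans hKV)
      (hT₁T.trans hTV) haV hT₁Q haQ haT₁ hfaithQ hfpf₁ hcl hab hQT hmin hcyc

universe u

theorem core36_holds : Core36.{u} := by
  intro G _ _ p r hp hr hp2 hr2 hpr V K T a har hV hK hKodd hKp hKr hT hKV hTV haV hTK haK haT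
    hfaith hfpf hZ hnc
  exact core36 hp hr hp2 hr2 hpr V K T a har hV hK hKodd hKp hKr hT hKV hTV haV hTK haK haT
    hfaith hfpf hZ hnc

end Cfsg.Agent.Lib.Helper3
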