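import Mathlib
import Cfsg.Agent.Lib.Helper3.NormalSeries

set_option autoImplicit false

namespace Cfsg.Agent.Lib.Helper3

universe u

/-- conjugacy statement for abelian Hall subgroups of a group -/
def HCstmt (G : Type u) [Group G] : Prop :=
  ∀ H K : Subgroup G, IsMulCommutative H → IsMulCommutative K → Nat.card H = Nat.card K →
    Nat.Coprime (Nat.card H) H.index → ∃ g : G, ∀ x ∈ H, g * x * g⁻¹ ∈ K

theorem hc_rel {G : Type u} [Group G] (C : Subgroup G) (h : HCstmt C) (H K : Subgroup G)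
    (hHC : H ≤ C) (hKC : K ≤ C) (hH : IsMulCommutative H) (hK : IsMulCommutative K)
    (hcard : Nat.card H = Nat.card K) (hcop : Nat.Coprime (Nat.card H) H.index) :
    ∃ c ∈ C, ∀ x ∈ H, c * x * c⁻¹ ∈ K := by
  have e1 := Nat.card_congr (Subgroup.subgroupOfEquivOfLe hHC).toEquiv
  have e2 := Nat.card_congr (Subgroup.subgroupOfEquivOfLe hKC).toEquiv
  have hH' : IsMulCommutative (H.subgroupOf C) :=
    ⟨⟨fun a b => Subtype.ext (Subtype.ext
      (congrArg (fun t : H => (t : G)) (hH.is_comm.comm ⟨a.1.1, a.2⟩ ⟨b.1.1, b.2⟩)))⟩⟩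
  have hK' : IsMulCommutative (K.subgroupOf C) :=
    ⟨⟨fun a b => Subtype.ext (Subtype.ext
      (congrArg (fun t : K => (t : G)) (hK.is_comm.comm ⟨a.1.1, a.2⟩ ⟨b.1.1, b.2⟩)))⟩⟩
  obtain ⟨c, hc⟩ := h (H.subgroupOf C) (K.subgroupOf C) hH' hK' (by rw [e1, e2, hcard])
    (by
      rw [e1]
      exact Nat.Coprime.coprime_dvd_right (Subgroup.relIndex_dvd_index_of_le hHC) hcop)
  refine ⟨c, c.2, fun x hx => ?_⟩
  have := hc ⟨x, hHC hx⟩ (Subgroup.mem_subgroupOf.mpr hx)
  exact Subgroup.mem_subgroupOf.mp this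

theorem hc_quot {G : Type u} [Group G] [Finite G] (Q : Subgroup G) [Q.Normal] (h : HCstmt (G ⧸ Q))
    (H K : Subgroup G) (hQH : Q ≤ H) (hQK : Q ≤ K) (hH : IsMulCommutative H)
    (hK : IsMulCommutative K)
    (hcard : Nat.card H = Nat.card K) (hcop : Nat.Coprime (Nat.card H) H.index) :
    ∃ g : G, ∀ x ∈ H, g * x * g⁻¹ ∈ K := by
  have hcH : (H.map (QuotientGroup.mk' Q)).comap (QuotientGroup.mk' Q) = H := by
    rw [Subgroup.comap_map_eq, QuotientGroup.ker_mk']; exact sup_eq_left.mpr hQH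
  have hcK : (K.map (QuotientGroup.mk' Q)).comap (QuotientGroup.mk' Q) = K := by
    rw [Subgroup.comap_map_eq, QuotientGroup.ker_mk']; exact sup_eq_left.mpr hQK
  have e1 := card_comap_mk' Q (H.map (QuotientGroup.mk' Q))
  have e2 := card_comap_mk' Q (K.map (QuotientGroup.mk' Q))
  rw [hcH] at e1
  rw [hcK] at e2
  have hH' : IsMulCommutative (H.map (QuotientGroup.mk' Q)) := by
    refine ⟨⟨fun a b => Subtype.ext ?_⟩⟩
    obtain ⟨x, hx, hxa⟩ := a.2
    obtain ⟨y, hy, hyb⟩ := b.2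
    show (a : G ⧸ Q) * b = b * a
    rw [← hxa, ← hyb, ← map_mul, ← map_mul]
    exact congrArg _ (congrArg Subtype.val (hH.is_comm.comm ⟨x, hx⟩ ⟨y, hy⟩))
  have hK' : IsMulCommutative (K.map (QuotientGroup.mk' Q)) := by
    refine ⟨⟨fun a b => Subtype.ext ?_⟩⟩
    obtain ⟨x, hx, hxa⟩ := a.2
    obtain ⟨y, hy, hyb⟩ := b.2
    show (a : G ⧸ Q) * b = b * a
    rw [← hxa, ← hyb, ← map_mul, ← map_mul]
    exact congrArg _ (congrArg Subtype.val (hK.is_comm.comm ⟨x, hx⟩ ⟨y, hy⟩))
  have hpos : 0 < Nat.card Q := Nat.card_pos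
  obtain ⟨gb, hgb⟩ := h _ _ hH' hK'
    (Nat.eq_of_mul_eq_mul_right hpos (by rw [← e1, ← e2, hcard]))
    (by
      rw [Subgroup.index_map_eq _ (QuotientGroup.mk'_surjective Q)
        (by rw [QuotientGroup.ker_mk']; exact hQH)]
      exact Nat.Coprime.coprime_dvd_left ⟨_, e1⟩ hcop)
  obtain ⟨g, rfl⟩ := QuotientGroup.mk'_surjective Q gb
  refine ⟨g, fun x hx => ?_⟩
  have := hgb (QuotientGroup.mk' Q x) ⟨x, hx, rfl⟩
  rw [← hcK, Subgroup.mem_comap, map_mul, map_mul, map_inv]
  exact this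

/-- step: two abelian Hall subgroups sharing a nontrivial element -/
theorem hc_step {G : Type u} [Group G] [Finite G]
    (ih : ∀ (G' : Type u) [Group G'] [Finite G'], Nat.card G' < Nat.card G → HCstmt G')
    (H K : Subgroup G) (hH : IsMulCommutative H) (hK : IsMulCommutative K)
    (hcard : Nat.card H = Nat.card K) (hcop : Nat.Coprime (Nat.card H) H.index)
    (y : G) (hy1 : y ≠ 1) (hyH : y ∈ H) (hyK : y ∈ K) :
    ∃ g : G, ∀ x ∈ H, g * x * g⁻¹ ∈ K := by
  have hHC : H ≤ Subgroup.centralizer {y} := by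
    intro x hx
    rw [Subgroup.mem_centralizer_singleton_iff]
    exact congrArg Subtype.val (hH.is_comm.comm ⟨x, hx⟩ ⟨y, hyH⟩)
  have hKC : K ≤ Subgroup.centralizer {y} := by
    intro x hx
    rw [Subgroup.mem_centralizer_singleton_iff]
    exact congrArg Subtype.val (hK.is_comm.comm ⟨x, hx⟩ ⟨y, hyK⟩)
  by_cases hC : Subgroup.centralizer {y} = ⊤
  · have hyc : y ∈ Subgroup.center G := by
      rw [Subgroup.centralizer_eq_top_iff_subset] at hC
      exact hC rfl
    have hQc : Subgroup.zpowers y ≤ Subgroup.center G := by rw [Subgroup.zpowers_le]; exact hyc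
    have hQn : (Subgroup.zpowers y).Normal := normal_of_le_center' hQc
    apply hc_quot (Subgroup.zpowers y) _ H K (by rw [Subgroup.zpowers_le]; exact hyH)
      (by rw [Subgroup.zpowers_le]; exact hyK) hH hK hcard hcop
    apply ih
    have h := Subgroup.card_eq_card_quotient_mul_card_subgroup (Subgroup.zpowers y)
    have h1 : 1 < Nat.card (Subgroup.zpowers y) := by
      rw [Subgroup.one_lt_card_iff_ne_bot, Ne, Subgroup.zpowers_eq_bot]
      exact hy1
    have hpos : 0 < Nat.card (G ⧸ Subgroup.zpowers y) := Nat.card_pos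
    nlinarith
  · obtain ⟨c, -, hc⟩ := hc_rel (Subgroup.centralizer {y}) (ih _ (by
      apply lt_of_le_of_ne (Subgroup.card_le_card_group _)
      intro heq
      exact hC (Subgroup.eq_top_of_card_eq _ heq))) H K hHC hKC hH hK hcard hcop
    exact ⟨c, hc⟩

theorem hc_main (m : ℕ) :
    ∀ (G : Type u) [Group G] [Finite G], Nat.card G = m → HCstmt G := by
  induction m using Nat.strong_induction_on with
  | _ m ih =>
  intro G _ _ hm H K hH hK hcard hcop
  by_cases hbot : H = ⊥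
  · refine ⟨1, fun x hx => ?_⟩
    rw [hbot, Subgroup.mem_bot] at hx
    rw [hx]; simp
  have hne1 : Nat.card H ≠ 1 := fun h => hbot (Subgroup.card_eq_one.mp h)
  obtain ⟨p, hp, hpd⟩ := Nat.exists_prime_and_dvd hne1
  have : Fact p.Prime := ⟨hp⟩
  obtain ⟨x, hx⟩ := exists_prime_orderOf_dvd_card' p hpd
  have hxo : orderOf (x : G) = p := by rw [Subgroup.orderOf_coe, hx]
  -- a Sylow subgroup of G inside K
  obtain ⟨Q0⟩ : Nonempty (Sylow p K) := inferInstance
  have hidx : K.index = H.index := by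
    have h1 := H.card_mul_index
    have h2 := K.card_mul_index
    rw [← hcard] at h2
    exact Nat.eq_of_mul_eq_mul_left Nat.card_pos (h2.trans h1.symm)
  have hpK : ¬ p ∣ K.index := by
    rw [hidx]
    intro h
    have := Nat.dvd_gcd hpd h
    rw [hcop.gcd_eq_one] at this
    exact hp.one_lt.ne' (Nat.dvd_one.mp this)
  have hQp : IsPGroup p ((Q0 : Subgroup K).map K.subtype) := Q0.2.map _
  have hQi : ¬ p ∣ ((Q0 : Subgroup K).map K.subtype).index := by
    rw [Subgroup.index_map_subtype]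
    exact Nat.Prime.not_dvd_mul hp Q0.not_dvd_index hpK
  have hpg : IsPGroup p (Subgroup.zpowers (x : G)) := by
    rw [IsPGroup.iff_card]
    exact ⟨1, by rw [Nat.card_zpowers, hxo, pow_one]⟩
  obtain ⟨S, hS⟩ := hpg.exists_le_sylow
  obtain ⟨g0, hg0⟩ := MulAction.exists_smul_eq G S (hQp.toSylow hQi)
  have hyK : g0 * x * g0⁻¹ ∈ K := by
    have h1 : (x : G) ∈ (S : Subgroup G) := hS (Subgroup.mem_zpowers _)
    have h2 := Subgroup.smul_mem_pointwise_smul (x : G) (MulAut.conj g0) (S : Subgroup G) h1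
    rw [← Sylow.coe_subgroup_smul, hg0] at h2
    have h3 : g0 * x * g0⁻¹ ∈ (Q0 : Subgroup K).map K.subtype := by
      simpa [MulAut.smul_def] using h2
    obtain ⟨w, -, hw⟩ := h3
    rw [← hw]; exact w.2
  -- the conjugate of H
  let H1 : Subgroup G := H.map (MulAut.conj g0).toMonoidHom
  have hH1 : IsMulCommutative H1 := by
    refine ⟨⟨fun a b => Subtype.ext ?_⟩⟩
    obtain ⟨u, hu, hua⟩ := a.2
    obtain ⟨v, hv, hvb⟩ := b.2
    show (a : G) * b = b * a
    rw [← hua, ← hvb, ← map_mul, ← map_mul]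
    exact congrArg _ (congrArg Subtype.val (hH.is_comm.comm ⟨u, hu⟩ ⟨v, hv⟩))
  have hH1card : Nat.card H1 = Nat.card H :=
    Subgroup.card_map_of_injective (MulAut.conj g0).injective
  have hH1idx : H1.index = H.index := Subgroup.index_map_equiv H (MulAut.conj g0)
  obtain ⟨g1, hg1⟩ := hc_step (fun G' _ _ hlt => ih _ (hm ▸ hlt) G' rfl) H1 K hH1 hK
    (by rw [hH1card, hcard]) (by rw [hH1card, hH1idx]; exact hcop) (g0 * x * g0⁻¹)
    (by
      intro h
      have : (x : G) = 1 := by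
        have h2 : (x : G) = g0⁻¹ * (g0 * x * g0⁻¹) * g0 := by group
        rw [h2, h]; group
      rw [this, orderOf_one] at hxo
      exact hp.one_lt.ne hxo)
    ⟨x, x.2, rfl⟩ hyK
  refine ⟨g1 * g0, fun u hu => ?_⟩
  have := hg1 (g0 * u * g0⁻¹) ⟨u, hu, rfl⟩
  simpa [mul_assoc] using this

/-- Abelian Hall subgroups of the same order are conjugate. -/
theorem abelian_hall_conj {G : Type u} [Group G] [Finite G] : HCstmt G := hc_main _ G rfl

end Cfsg.Agent.Lib.Helper3
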