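import Cfsg.Agent.Lib.Helper3.TateOp
import Cfsg.Prelude.Def_Transfer

set_option autoImplicit false

namespace Cfsg.Agent.Lib.Helper3

open Subgroup
open scoped commutatorElement

theorem le_normalizer_of_isWeaklyClosed {G : Type*} [Group G] {Q P : Subgroup G}
    (hQ : Cfsg.IsWeaklyClosed Q P) : P ≤ Subgroup.normalizer (Q : Set G) := by
  intro g hg
  have h1 : ∀ g ∈ P, Q.map (MulAut.conj g).toMonoidHom = Q := by
    intro g hg
    apply hQ.2 g
    rintro _ ⟨q, hq, rfl⟩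
    exact P.mul_mem (P.mul_mem hg (hQ.1 hq)) (P.inv_mem hg)
  rw [Subgroup.mem_normalizer_iff]
  intro h
  constructor
  · intro hh
    have : g * h * g⁻¹ ∈ Q.map (MulAut.conj g).toMonoidHom := ⟨h, hh, rfl⟩
    rwa [h1 g hg] at this
  · intro hh
    have : g⁻¹ * (g * h * g⁻¹) * g⁻¹⁻¹ ∈ Q.map (MulAut.conj g⁻¹).toMonoidHom := ⟨_, hh, rfl⟩
    rw [h1 g⁻¹ (P.inv_mem hg)] at this
    convert this using 1
    group

/-- Hall–Wielandt, conditional on the conclusion of Yoshida's weak closure theorem (S2792). -/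
theorem hall_wielandt_of {G : Type*} [Group G] [Finite G] {p : ℕ} [Fact p.Prime] (P : Sylow p G)
    (Q : Subgroup G) (hQ : Cfsg.IsWeaklyClosed Q (P : Subgroup G))
    (h : ∀ u ∈ (P : Subgroup G), ∀ z ∈ Q, (fun y : G => y⁻¹ * z⁻¹ * y * z)^[p - 1] u = 1)
    (hY : (P : Subgroup G) ⊓ commutator G ≠ (P : Subgroup G) ⊓
        ⁅Subgroup.normalizer (Q : Set G), Subgroup.normalizer (Q : Set G)⁆ →
      ∃ x ∈ (P : Subgroup G), ∃ z ∈ Q, ∃ W₀ : Subgroup ↥Q, IsCoatom W₀ ∧
        (fun y : G => y⁻¹ * z⁻¹ * y * z)^[p - 1] x ∈ W₀.map Q.subtype ∧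
        (fun y : G => y⁻¹ * z⁻¹ * y * z)^[p - 1] x ∉
          ((frattini ↥W₀).map W₀.subtype).map Q.subtype) :
    Cfsg.pResidualOf p (Subgroup.normalizer (Q : Set G)) =
      Cfsg.pResidual p G ⊓ Subgroup.normalizer (Q : Set G) := by
  apply pResidualOf_eq_of_focal_le P _ (le_normalizer_of_isWeaklyClosed hQ)
  by_contra hne
  have hne' : (P : Subgroup G) ⊓ commutator G ≠ (P : Subgroup G) ⊓
        ⁅Subgroup.normalizer (Q : Set G), Subgroup.normalizer (Q : Set G)⁆ := by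
    intro he
    apply hne
    rw [he]
    exact inf_le_right
  obtain ⟨x, hx, z, hz, W₀, -, -, h3⟩ := hY hne'
  rw [h x hx z hz] at h3
  exact h3 (one_mem _)

theorem isWeaklyClosed_self {G : Type*} [Group G] [Finite G] (P : Subgroup G) :
    Cfsg.IsWeaklyClosed P P := by
  refine ⟨le_rfl, fun g hg => ?_⟩
  apply Subgroup.eq_of_le_of_card_ge hg
  rw [Subgroup.card_map_of_injective (MulAut.conj g).injective]

theorem iterate_comm_mem_lowerCentralSeries {G : Type*} [Group G] (P : Subgroup G) {u z : G}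
    (hu : u ∈ P) (hz : z ∈ P) (k : ℕ) :
    (fun y : G => y⁻¹ * z⁻¹ * y * z)^[k] u ∈ P.lowerCentralSeries k := by
  induction k with
  | zero => simpa using hu
  | succ k ih =>
    rw [Function.iterate_succ_apply']
    have e : ∀ y : G, y⁻¹ * z⁻¹ * y * z = ⁅y⁻¹, z⁻¹⁆ := by
      intro y
      rw [commutatorElement_def]; group
    show ((fun y : G => y⁻¹ * z⁻¹ * y * z)^[k] u)⁻¹ * z⁻¹ *
      ((fun y : G => y⁻¹ * z⁻¹ * y * z)^[k] u) * z ∈ _
    rw [e]
    exact Subgroup.commutator_mem_commutator (inv_mem ih) (inv_mem hz)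

end Cfsg.Agent.Lib.Helper3
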