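import Mathlib

set_option autoImplicit false

namespace Cfsg.Agent.Lib.Helper3

open scoped commutatorElement

variable {X : Type*} [Group X]

theorem inv_mul_mem_of_index_two {C : Subgroup X} (hC : C.index = 2) {x g : X} (hx : x ∉ C)
    (hg : g ∉ C) : x⁻¹ * g ∈ C := by
  rw [Subgroup.mul_mem_iff_of_index_two hC, Subgroup.inv_mem_iff]
  exact ⟨fun h => absurd h hx, fun h => absurd h hg⟩

/-- if an abelian subgroup of index two does not contain the centre, the group is abelian -/
theorem center_le_of_index_two {C : Subgroup X} (hC : C.index = 2)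
    (hcomm : ∀ a ∈ C, ∀ b ∈ C, a * b = b * a) (hX : ¬ IsMulCommutative X) :
    Subgroup.center X ≤ C := by
  intro z hz
  by_contra hzC
  apply hX
  have hzc : ∀ g, g * z = z * g := Subgroup.mem_center_iff.mp hz
  have hCc : ∀ a ∈ C, ∀ g, a * g = g * a := by
    intro a ha g
    by_cases hg : g ∈ C
    · exact hcomm a ha g hg
    · have h1 := inv_mul_mem_of_index_two hC hzC hg
      have h2 : Commute a (z⁻¹ * g) := hcomm a ha _ h1
      have h3 : Commute a (z * (z⁻¹ * g)) := Commute.mul_right (hzc a) h2
      rw [mul_inv_cancel_left] at h3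
      exact h3.eq
  refine ⟨⟨fun a b => ?_⟩⟩
  by_cases ha : a ∈ C
  · exact hCc a ha b
  · have h1 := inv_mul_mem_of_index_two hC hzC ha
    have h2 : Commute (z⁻¹ * a) b := hCc _ h1 b
    have h3 : Commute (z * (z⁻¹ * a)) b := Commute.mul_left (hzc b).symm h2
    rw [mul_inv_cancel_left] at h3
    exact h3.eq

/-- A nonabelian finite group with an abelian subgroup `C` of index two has
`|C| = |Z(X)| * |X'|`. -/
theorem card_eq_card_center_mul_card_commutator [Finite X] {C : Subgroup X} (hC : C.index = 2)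
    (hcomm : ∀ a ∈ C, ∀ b ∈ C, a * b = b * a) (hX : ¬ IsMulCommutative X) :
    Nat.card C = Nat.card (Subgroup.center X) * Nat.card (commutator X) := by
  have hCn : C.Normal := Subgroup.normal_of_index_eq_two hC
  obtain ⟨x0, hx0⟩ : ∃ x, x ∉ C := by
    by_contra hcon
    push Not at hcon
    have : C = ⊤ := eq_top_iff.mpr fun x _ => hcon x
    rw [this, Subgroup.index_top] at hC
    omega
  have hmem : ∀ a ∈ C, ⁅a, x0⁆ ∈ C := by
    intro a ha
    rw [commutatorElement_def, mul_assoc, mul_assoc]
    apply C.mul_mem ha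
    rw [← mul_assoc]
    exact hCn.conj_mem _ (C.inv_mem ha) x0
  let θ : C →* X :=
    { toFun := fun a => ⁅(a : X), x0⁆
      map_one' := commutatorElement_one_left x0
      map_mul' := by
        intro a b
        show ⁅(a : X) * (b : X), x0⁆ = ⁅(a : X), x0⁆ * ⁅(b : X), x0⁆
        rw [commutatorElement_mul_left_eq_conj_mul, hcomm _ a.2 _ (hmem b b.2), mul_assoc ⁅(b : X), x0⁆,
          mul_inv_cancel, mul_one]
        exact hcomm _ (hmem b b.2) _ (hmem a a.2) }
  have hθ : ∀ a : C, θ a = ⁅(a : X), x0⁆ := fun a => rfl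
  have hZC := center_le_of_index_two hC hcomm hX
  have hker : Nat.card θ.ker = Nat.card (Subgroup.center X) := by
    refine Nat.card_congr ⟨fun a => ⟨a.1.1, ?_⟩, fun z => ⟨⟨z.1, hZC z.2⟩, ?_⟩, fun a => rfl, fun z => rfl⟩
    · have ha : ⁅((a : C) : X), x0⁆ = 1 := a.2
      rw [commutatorElement_eq_one_iff_mul_comm] at ha
      rw [Subgroup.mem_center_iff]
      intro g
      by_cases hg : g ∈ C
      · exact hcomm g hg _ a.1.2
      · have h1 := inv_mul_mem_of_index_two hC hx0 hg
        have h2 : Commute (x0⁻¹ * g) ((a : C) : X) := hcomm _ h1 _ a.1.2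
        have h3 : Commute (x0 * (x0⁻¹ * g)) ((a : C) : X) := Commute.mul_left ha.symm h2
        rw [mul_inv_cancel_left] at h3
        exact h3.eq
    · rw [MonoidHom.mem_ker, hθ, commutatorElement_eq_one_iff_mul_comm]
      exact (Subgroup.mem_center_iff.mp z.2 x0).symm
  have hconj : ∀ a : C, x0 * θ a * x0⁻¹ ∈ θ.range := by
    intro a
    refine ⟨⟨x0 * a * x0⁻¹, hCn.conj_mem _ a.2 x0⟩, ?_⟩
    rw [hθ, hθ, conjugate_commutatorElement]
    simp
  have hrange : θ.range = commutator X := by
    apply le_antisymm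
    · rintro _ ⟨a, rfl⟩
      exact Subgroup.commutator_mem_commutator (Subgroup.mem_top _) (Subgroup.mem_top _)
    · rw [commutator_def, Subgroup.commutator_le]
      -- ⁅a, x0 * b⁆ for a b ∈ C
      have h1 : ∀ a ∈ C, ∀ b ∈ C, ⁅a, x0 * b⁆ ∈ θ.range := by
        intro a ha b hb
        rw [commutatorElement_mul_right_eq_mul_conj,
          commutatorElement_eq_one_iff_mul_comm.mpr (hcomm a ha b hb), mul_one, mul_assoc,
          mul_inv_cancel, mul_one]
        exact ⟨⟨a, ha⟩, rfl⟩
      have h2 : ∀ a ∈ C, ∀ g, ⁅a, g⁆ ∈ θ.range := by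
        intro a ha g
        by_cases hg : g ∈ C
        · rw [commutatorElement_eq_one_iff_mul_comm.mpr (hcomm a ha g hg)]
          exact Subgroup.one_mem _
        · have h3 : g = x0 * (x0⁻¹ * g) := by group
          rw [h3]
          exact h1 a ha _ (inv_mul_mem_of_index_two hC hx0 hg)
      have h4 : ∀ g, ⁅x0, g⁆ ∈ θ.range := by
        intro g
        by_cases hg : g ∈ C
        · rw [← commutatorElement_inv]
          exact Subgroup.inv_mem _ (h2 g hg x0)
        · have h3 : g = x0 * (x0⁻¹ * g) := by group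
          rw [h3, commutatorElement_mul_right_eq_mul_conj, commutatorElement_self, one_mul,
            ← commutatorElement_inv, ← conj_inv]
          exact Subgroup.inv_mem _ (hconj ⟨_, inv_mul_mem_of_index_two hC hx0 hg⟩)
      intro g _ h _
      by_cases hg : g ∈ C
      · exact h2 g hg h
      · have h3 : g = x0 * (x0⁻¹ * g) := by group
        rw [h3, commutatorElement_mul_left_eq_conj_mul]
        apply Subgroup.mul_mem _ _ (h4 h)
        obtain ⟨a, ha⟩ := h2 _ (inv_mul_mem_of_index_two hC hx0 hg) h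
        rw [← ha]
        exact hconj a
  have h1 := θ.ker.card_mul_index
  rw [Subgroup.index_ker, hker, hrange] at h1
  exact h1.symm

end Cfsg.Agent.Lib.Helper3
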