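import Cfsg.Agent.Lib.Helper3.RankTwoAut
import Cfsg.Agent.Lib.Helper3.RankThree
import Cfsg.Agent.S1453

set_option autoImplicit false

namespace Cfsg.Agent.Lib.Helper3

open scoped commutatorElement

/-- Automorphisms act on a section `B / A` of characteristic subgroups. -/
noncomputable def autSection {R : Type*} [Group R] (A B : Subgroup R) [hA : A.Characteristic]
    [hB : B.Characteristic] : MulAut R →* MulAut (B ⧸ A.subgroupOf B) where
  toFun φ := QuotientGroup.congr _ _ (resChar B φ) (by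
    ext x
    constructor
    · rintro ⟨y, hy, rfl⟩
      exact char_aut_mem hA φ hy
    · intro hx
      exact ⟨(resChar B φ).symm x, char_aut_mem hA φ.symm hx, (resChar B φ).apply_symm_apply x⟩)
  map_one' := by
    ext x
    induction x using QuotientGroup.induction_on
    rfl
  map_mul' φ ψ := by
    ext x
    induction x using QuotientGroup.induction_on
    rfl

theorem autSection_mk {R : Type*} [Group R] (A B : Subgroup R) [A.Characteristic]
    [B.Characteristic] (φ : MulAut R) (y : B) :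
    autSection A B φ (y : B ⧸ A.subgroupOf B) = ((resChar B φ y : B) : B ⧸ A.subgroupOf B) := rfl

theorem mem_of_mem_ker_autSection {R : Type*} [Group R] (A B : Subgroup R) [A.Characteristic]
    [B.Characteristic] {γ : MulAut R} (hγ : γ ∈ (autSection A B).ker) {x : R} (hx : x ∈ B) :
    x⁻¹ * γ x ∈ A := by
  have h1 : autSection A B γ = 1 := hγ
  have h2 := congrArg (fun a : MulAut (B ⧸ A.subgroupOf B) => a ((⟨x, hx⟩ : B) : B ⧸ A.subgroupOf B)) h1
  simp only [autSection_mk, MulAut.one_apply] at h2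
  have h3 : (⟨x, hx⟩ : B)⁻¹ * resChar B γ ⟨x, hx⟩ ∈ A.subgroupOf B := QuotientGroup.eq.mp h2.symm
  exact h3

theorem autSection_ker_props {R : Type*} [Group R] [Finite R] {p : ℕ} [Fact p.Prime]
    (A B : Subgroup R) [A.Characteristic] [B.Characteristic]
    (hcard : Nat.card (B ⧸ A.subgroupOf B) = 1 ∨ Nat.card (B ⧸ A.subgroupOf B) = p) :
    commutator (MulAut R) ≤ (autSection A B).ker ∧ ∀ α : MulAut R, α ^ (p - 1) ∈ (autSection A B).ker := by
  have hp : p.Prime := Fact.out
  have hcyc : IsCyclic (B ⧸ A.subgroupOf B) := by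
    rcases hcard with h | h
    · have := (Nat.card_eq_one_iff_unique.mp h).1
      exact isCyclic_of_subsingleton
    · exact isCyclic_of_prime_card h
  constructor
  · have h1 := Abelianization.commutator_subset_ker
      ((IsCyclic.mulAutMulEquiv (B ⧸ A.subgroupOf B)).toMonoidHom.comp (autSection A B))
    intro x hx
    have h2 := h1 hx
    rw [MonoidHom.mem_ker, MonoidHom.comp_apply] at h2
    rw [MonoidHom.mem_ker]
    exact (IsCyclic.mulAutMulEquiv (B ⧸ A.subgroupOf B)).injective (by rw [map_one]; exact h2)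
  · intro α
    rw [MonoidHom.mem_ker, map_pow]
    apply orderOf_dvd_iff_pow_eq_one.1
    refine (orderOf_dvd_natCard _).trans ?_
    rw [IsCyclic.card_mulAut]
    rcases hcard with h | h
    · rw [h]; simp
    · rw [h, Nat.totient_prime hp]

/-- A `p'`-automorphism stabilizing a chain acts trivially. -/
theorem fixes_of_chain {R : Type*} [Group R] {p : ℕ} (hR : IsPGroup p R) (X : ℕ → Subgroup R)
    (h0 : X 0 = ⊥) (γ : MulAut R) (hγ : (orderOf γ).Coprime p)
    (hstep : ∀ i, ∀ x ∈ X (i + 1), x⁻¹ * γ x ∈ X i) : ∀ i, ∀ x ∈ X i, γ x = x := by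
  intro i
  induction i with
  | zero =>
    intro x hx
    rw [h0, Subgroup.mem_bot] at hx
    rw [hx, map_one]
  | succ i ih =>
    intro x hx
    exact aut_fixes_of_coprime hR γ hγ x (ih _ (hstep i x hx))

/-- characteristic in characteristic is characteristic -/
theorem characteristic_map_subtype {R : Type*} [Group R] (T : Subgroup R) [hT : T.Characteristic]
    (D : Subgroup T) (hD : D.Characteristic) : (D.map T.subtype).Characteristic := by
  rw [Subgroup.characteristic_iff_map_le]
  rintro φ _ ⟨_, ⟨d, hd, rfl⟩, rfl⟩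
  exact ⟨resChar T φ d, char_aut_mem hD (resChar T φ) hd, rfl⟩

theorem card_le_of_ne_of_card_sq {R : Type*} [Group R] [Finite R] {p : ℕ} [Fact p.Prime]
    {C E : Subgroup R} (hCE : C ≤ E) (hne : C ≠ E) (hE2 : Nat.card E = p ^ 2) :
    Nat.card C ≤ p := by
  have hp : p.Prime := Fact.out
  have h1 : Nat.card C ∣ p ^ 2 := hE2 ▸ Subgroup.card_dvd_of_le hCE
  obtain ⟨k, hk, hk'⟩ := (Nat.dvd_prime_pow hp).1 h1
  have hk2 : k ≠ 2 := by
    rintro rfl
    exact hne (Subgroup.eq_of_le_of_card_ge hCE (by rw [hE2, hk']))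
  have hk1 : k ≤ 1 := by omega
  rw [hk']
  calc p ^ k ≤ p ^ 1 := Nat.pow_le_pow_right hp.pos hk1
    _ = p := pow_one p

/-- counting with the map `s ↦ s^x s⁻¹`. -/
theorem card_le_of_comm_map {R : Type*} [Group R] [Finite R] (Y A Zs : Subgroup R) (x : R)
    (hmap : ∀ s ∈ Y, x⁻¹ * s * x * s⁻¹ ∈ A) (hfix : ∀ s ∈ Y, s * x = x * s → s ∈ Zs) :
    Nat.card Y ≤ Nat.card A * Nat.card Zs := by
  classical
  let g : Y → A := fun s => ⟨x⁻¹ * s * x * (s : R)⁻¹, hmap s s.2⟩
  let r : A → Y := fun b => if h : ∃ t, g t = b then h.choose else 1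
  have hr : ∀ s : Y, g (r (g s)) = g s := by
    intro s
    have h : ∃ t, g t = g s := ⟨s, rfl⟩
    show g (if h : ∃ t, g t = g s then h.choose else 1) = g s
    rw [dif_pos h]
    exact h.choose_spec
  have hz : ∀ s : Y, ((r (g s) : Y) : R)⁻¹ * s ∈ Zs := by
    intro s
    apply hfix _ (Y.mul_mem (Y.inv_mem (r (g s)).2) s.2)
    have h1 : x⁻¹ * (r (g s) : R) * x * (r (g s) : R)⁻¹ = x⁻¹ * s * x * (s : R)⁻¹ :=
      congrArg Subtype.val (hr s)
    have h2 : (r (g s) : R)⁻¹ * s = x⁻¹ * ((r (g s) : R)⁻¹ * s) * x := by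
      have h3 : x⁻¹ * ((r (g s) : R)⁻¹ * s) * x =
          (x⁻¹ * (r (g s) : R) * x)⁻¹ * (x⁻¹ * s * x) := by group
      have h4 : x⁻¹ * (r (g s) : R) * x = x⁻¹ * s * x * (s : R)⁻¹ * (r (g s) : R) := by
        rw [← h1]; group
      rw [h3, h4]; group
    generalize (r (g s) : R)⁻¹ * s = w at h2
    calc w * x = x * (x⁻¹ * w * x) := by group
      _ = x * w := by rw [← h2]
  rw [← Nat.card_prod]
  apply Nat.card_le_card_of_injective (fun s : Y => ((g s, ⟨_, hz s⟩) : A × Zs))
  intro s s' hss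
  have h1 : g s = g s' := congrArg Prod.fst hss
  have h2 : ((r (g s) : Y) : R)⁻¹ * s = ((r (g s') : Y) : R)⁻¹ * s' :=
    congrArg (fun z : A × Zs => (z.2 : R)) hss
  rw [h1] at h2
  exact Subtype.ext (mul_left_cancel h2)

/-- **Automorphisms of narrow `p`-groups of rank at least 3** (B-G 5.3): `Aut R` has a normal
subgroup `Γ` with abelian quotient of exponent dividing `p - 1` and no nontrivial `p'`-elements. -/
theorem narrow_aut {R : Type*} [Group R] [Finite R] {p : ℕ} [Fact p.Prime] (hp : p ≠ 2)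
    (hR : IsPGroup p R) (hr : ¬ Cfsg.PRankLE p 2 R) (E : Subgroup R)
    (hE : Cfsg.IsElementaryAbelian p E) (hE2 : Nat.card E = p ^ 2)
    (hEmax : ∀ B : Subgroup R, Cfsg.IsElementaryAbelian p B → E ≤ B → B = E) :
    ∃ Γ : Subgroup (MulAut R), commutator (MulAut R) ≤ Γ ∧ (∀ α : MulAut R, α ^ (p - 1) ∈ Γ) ∧
      ∀ γ ∈ Γ, (orderOf γ).Coprime p → γ = 1 := by
  have hpp : p.Prime := Fact.out
  obtain ⟨hET, hZc, ⟨hWe, -⟩, hTchar, -⟩ := Cfsg.Agent.S1453.result p hp hR hr E hE hE2 hEmax
  set Z := Subgroup.closure {x : R | x ∈ Subgroup.center R ∧ x ^ p = 1} with hZ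
  set W := Subgroup.closure {x : R | x ∈ Subgroup.upperCentralSeries R 2 ∧ x ^ p = 1} with hW
  set T := Subgroup.centralizer (W : Set R) with hT
  obtain ⟨x, hxE, hxT⟩ := SetLike.not_le_iff_exists.1 hET
  have hEc : ∀ a ∈ E, ∀ b ∈ E, a * b = b * a := fun a ha b hb =>
    congrArg Subtype.val (hE.1.is_comm.comm ⟨a, ha⟩ ⟨b, hb⟩)
  have hZcen : Z ≤ Subgroup.center R := (Subgroup.closure_le _).2 (fun z hz => hz.1)
  have hZT : Z ≤ T := hZcen.trans (Subgroup.center_le_centralizer _)
  have hZcomm : ∀ z ∈ Z, ∀ g : R, g * z = z * g := fun z hz g =>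
    Subgroup.mem_center_iff.1 (hZcen hz) g
  have hZexp : ∀ z ∈ Z, z ^ p = 1 := by
    intro z hz
    induction hz using Subgroup.closure_induction with
    | mem y hy => exact hy.2
    | one => exact one_pow _
    | mul a b ha _ hap hbp =>
      have : Commute a b := (hZcomm a ha b).symm
      rw [this.mul_pow, hap, hbp, one_mul]
    | inv a _ hap => rw [inv_pow, hap, inv_one]
  have mkEA : ∀ D : Subgroup R, (∀ a ∈ D, ∀ b ∈ D, a * b = b * a) → (∀ a ∈ D, a ^ p = 1) →
      (∀ a ∈ E, ∀ b ∈ D, a * b = b * a) → D ≤ E := by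
    intro D hDc hDe hED
    have hc := sup_comm_of_comm E D hEc hDc hED
    have he := sup_pow_of_comm E D p hE.2 hDe hc
    have := hEmax (E ⊔ D) ⟨⟨⟨fun a b => Subtype.ext (hc a a.2 b b.2)⟩⟩, he⟩ le_sup_left
    exact this ▸ le_sup_right
  have hZE : Z ≤ E := mkEA Z (fun a _ b hb => hZcomm b hb a) hZexp (fun a _ b hb => hZcomm b hb a)
  have hETZ : E ⊓ T = Z := by
    symm
    apply Subgroup.eq_of_le_of_card_ge (le_inf hZE hZT)
    rw [hZc]
    refine card_le_of_ne_of_card_sq inf_le_left (fun h => hxT ?_) hE2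
    have : x ∈ E ⊓ T := by rw [h]; exact hxE
    exact this.2
  -- the small characteristic subgroup of `T`
  obtain ⟨D, hDc, hDe, hDf⟩ := Cfsg.Agent.Lib.Helper90.exists_char_small (hR.to_subgroup T)
  have hS₀char : (D.map T.subtype).Characteristic := characteristic_map_subtype T D hDc
  set S₀ := D.map T.subtype with hS₀
  have hS₀T : S₀ ≤ T := by
    rintro _ ⟨d, -, rfl⟩
    exact d.2
  have hS₀e : ∀ s ∈ S₀, s ^ p = 1 := by
    rintro _ ⟨d, hd, rfl⟩
    rcases hDe d hd with h | ⟨h, _⟩
    · exact congrArg Subtype.val h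
    · exact absurd h hp
  have hcent : ∀ s ∈ S₀, s * x = x * s → s ∈ Z := by
    intro s hs hsx
    have hC : E ⊓ Subgroup.centralizer {s} = E := by
      by_contra hne
      have h1 := card_le_of_ne_of_card_sq inf_le_left hne hE2
      have h2 : Z ≤ E ⊓ Subgroup.centralizer {s} := by
        refine le_inf hZE (fun z hz => ?_)
        rw [Subgroup.mem_centralizer_singleton_iff]
        exact (hZcomm z hz s).symm
      have h3 := Subgroup.eq_of_le_of_card_ge h2 (by rw [hZc]; exact h1)
      have h4 : x ∈ E ⊓ Subgroup.centralizer {s} :=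
        ⟨hxE, Subgroup.mem_centralizer_singleton_iff.2 hsx.symm⟩
      rw [← h3] at h4
      exact hxT (hZT h4)
    have hsE : ∀ a ∈ E, a * s = s * a := by
      intro a ha
      have : a ∈ E ⊓ Subgroup.centralizer {s} := by rw [hC]; exact ha
      exact Subgroup.mem_centralizer_singleton_iff.1 this.2
    have h5 : Subgroup.zpowers s ≤ E := by
      apply mkEA
      · rintro _ ⟨m, rfl⟩ _ ⟨n, rfl⟩
        exact (Commute.zpow_zpow_self s m n)
      · rintro _ ⟨m, rfl⟩
        show (s ^ m) ^ p = 1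
        rw [← zpow_natCast, ← zpow_mul, mul_comm, zpow_mul, zpow_natCast, hS₀e s hs, one_zpow]
      · rintro a ha _ ⟨n, rfl⟩
        exact (Commute.zpow_right (hsE a ha) n)
    rw [← hETZ]
    exact ⟨h5 (Subgroup.mem_zpowers s), hS₀T hs⟩
  -- the chain
  let X : ℕ → Subgroup R := fun i => Subgroup.upperCentralSeries R i ⊓ S₀
  have hXchar : ∀ i, (X i).Characteristic := fun i => inferInstance
  have hX0 : X 0 = ⊥ := by
    show Subgroup.upperCentralSeries R 0 ⊓ S₀ = ⊥
    rw [Subgroup.upperCentralSeries_zero, bot_inf_eq]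
  have hXmono : ∀ i, X i ≤ X (i + 1) := fun i =>
    inf_le_inf_right _ (Subgroup.upperCentralSeries_mono R (Nat.le_succ i))
  have hS₀n : S₀.Normal := inferInstance
  have hXcard : ∀ i, Nat.card (X (i + 1)) ≤ Nat.card (X i) * p := by
    intro i
    rw [← hZc]
    apply card_le_of_comm_map (X (i + 1)) (X i) Z x
    · intro s hs
      refine ⟨?_, ?_⟩
      · have h1 := (Subgroup.mem_upperCentralSeries_succ_iff.1 hs.1) x⁻¹
        have h2 := (Subgroup.upperCentralSeries R i).inv_mem h1
        have h3 : (⁅s, x⁻¹⁆)⁻¹ = x⁻¹ * s * x * s⁻¹ := by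
          rw [commutatorElement_def]; group
        rwa [h3] at h2
      · have h1 := hS₀n.conj_mem s hs.2 x⁻¹
        rw [inv_inv] at h1
        exact S₀.mul_mem h1 (S₀.inv_mem hs.2)
    · intro s hs hsx
      exact hcent s hs.2 hsx
  have hQ : ∀ i, Nat.card (X (i + 1) ⧸ (X i).subgroupOf (X (i + 1))) = 1 ∨
      Nat.card (X (i + 1) ⧸ (X i).subgroupOf (X (i + 1))) = p := by
    intro i
    obtain ⟨k, hk⟩ := (((hR.to_subgroup (X (i + 1))).to_quotient
      ((X i).subgroupOf (X (i + 1))))).exists_card_eq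
    have h1 := Subgroup.card_eq_card_quotient_mul_card_subgroup ((X i).subgroupOf (X (i + 1)))
    have h2 : Nat.card ((X i).subgroupOf (X (i + 1))) = Nat.card (X i) :=
      Nat.card_congr (Subgroup.subgroupOfEquivOfLe (hXmono i)).toEquiv
    rw [h2, hk] at h1
    have h3 := hXcard i
    rw [h1, mul_comm] at h3
    have h4 : p ^ k ≤ p := Nat.le_of_mul_le_mul_left h3 Nat.card_pos
    have h5 : k ≤ 1 := by
      by_contra hk2
      push Not at hk2
      have : p ^ 2 ≤ p ^ k := Nat.pow_le_pow_right hpp.pos hk2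
      have h6 : p * p ≤ p := by
        calc p * p = p ^ 2 := (sq p).symm
          _ ≤ p ^ k := this
          _ ≤ p := h4
      have := hpp.two_le
      nlinarith
    rw [hk]
    interval_cases k
    · left; rfl
    · right; exact pow_one p
  refine ⟨⨅ i, (autSection (X i) (X (i + 1))).ker, ?_, ?_, ?_⟩
  · exact le_iInf (fun i => (autSection_ker_props (X i) (X (i + 1)) (hQ i)).1)
  · intro α
    rw [Subgroup.mem_iInf]
    exact fun i => (autSection_ker_props (X i) (X (i + 1)) (hQ i)).2 α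
  · intro γ hγ hcop
    rw [Subgroup.mem_iInf] at hγ
    have hfix := fixes_of_chain hR X hX0 γ hcop
      (fun i s hs => mem_of_mem_ker_autSection (X i) (X (i + 1)) (hγ i) hs)
    have hnil : Group.IsNilpotent R := hR.isNilpotent
    obtain ⟨n, hn⟩ := hnil.nilpotent'
    have hfixS : ∀ s ∈ S₀, γ s = s := by
      intro s hs
      apply hfix n
      exact ⟨by rw [hn]; trivial, hs⟩
    have hresT : resChar T γ = 1 := by
      apply hDf
      · exact Nat.Coprime.coprime_dvd_left (orderOf_map_dvd _ _) hcop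
      · intro d hd
        exact Subtype.ext (hfixS d ⟨d, hd, rfl⟩)
    have hfixT : ∀ t ∈ T, γ t = t := by
      intro t ht
      have := congrArg (fun a : MulAut T => ((a ⟨t, ht⟩ : T) : R)) hresT
      exact this
    have hWT : W ≤ T := by
      intro w hw
      rw [hT, Subgroup.mem_centralizer_iff]
      intro v hv
      exact congrArg Subtype.val (hWe.1.is_comm.comm ⟨v, hv⟩ ⟨w, hw⟩)
    have hCT : Subgroup.centralizer (T : Set R) ≤ T :=
      Subgroup.centralizer_le (SetLike.coe_subset_coe.2 hWT)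
    have hTn : T.Normal := inferInstance
    ext r
    rw [MulAut.one_apply]
    apply aut_fixes_of_coprime hR γ hcop r
    apply hfixT
    apply hCT
    rw [Subgroup.mem_centralizer_iff]
    intro t ht
    have h1 := hfixT _ (hTn.conj_mem t ht r)
    rw [map_mul, map_mul, map_inv, hfixT t ht] at h1
    have h2 : γ r * t = r * t * r⁻¹ * γ r := by rw [← h1]; group
    calc t * (r⁻¹ * γ r) = r⁻¹ * (r * t * r⁻¹ * γ r) := by group
      _ = r⁻¹ * (γ r * t) := by rw [h2]
      _ = r⁻¹ * γ r * t := by group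

end Cfsg.Agent.Lib.Helper3
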