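import Cfsg.Agent.Lib.Helper3.NarrowAut

set_option autoImplicit false

namespace Cfsg.Agent.Lib.Helper3

open scoped commutatorElement

/-- `R` has an elementary abelian subgroup of order `p ^ 2` contained in no larger one. -/
def NarrowData (p : ℕ) (R : Type*) [Group R] : Prop :=
  ∃ E : Subgroup R, Cfsg.IsElementaryAbelian p E ∧ Nat.card E = p ^ 2 ∧
    ∀ B : Subgroup R, Cfsg.IsElementaryAbelian p B → E ≤ B → B = E

theorem map_commutator_le {H K : Type*} [Group H] [Group K] (ψ : H →* K) {h : H}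
    (hh : h ∈ commutator H) : ψ h ∈ commutator K := by
  have h1 : (commutator H).map ψ ≤ commutator K := by
    rw [commutator_def, commutator_def, Subgroup.map_commutator]
    exact Subgroup.commutator_mono le_top le_top
  exact h1 (Subgroup.mem_map_of_mem _ hh)

/-- Actions on a narrow `p`-group of rank at least 3. -/
theorem narrow_act {R : Type*} [Group R] [Finite R] {p : ℕ} [Fact p.Prime] (hp : p ≠ 2)
    (hR : IsPGroup p R) (hr : ¬ Cfsg.PRankLE p 2 R) (hN : NarrowData p R) :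
    (∀ γ ∈ commutator (MulAut R), (orderOf γ).Coprime p → γ = 1) ∧
      ∀ α : MulAut R, (orderOf α).Coprime p → α ^ (p - 1) = 1 := by
  obtain ⟨E, hE, hE2, hEmax⟩ := hN
  obtain ⟨Γ, h1, h2, h3⟩ := narrow_aut hp hR hr E hE hE2 hEmax
  refine ⟨fun γ hγ hc => h3 γ (h1 hγ) hc, fun α hc => h3 _ (h2 α) ?_⟩
  exact Nat.Coprime.coprime_dvd_left (orderOf_pow_dvd _) hc

theorem narrowData_of_centralizer {R : Type*} [Group R] [Finite R] {p : ℕ} [Fact p.Prime]
    (hR : IsPGroup p R) (hr : ¬ Cfsg.PRankLE p 2 R) (E₀ : Subgroup R)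
    (hE₀ : Cfsg.IsElementaryAbelian p E₀)
    (hC : ∀ B : Subgroup R, Cfsg.IsElementaryAbelian p B → (∀ b ∈ B, ∀ e ∈ E₀, b * e = e * b) →
      Nat.card B ≤ p ^ 2) : NarrowData p R := by
  have hpp : p.Prime := Fact.out
  set Z := Subgroup.closure {x : R | x ∈ Subgroup.center R ∧ x ^ p = 1} with hZ
  have hEc : ∀ a ∈ E₀, ∀ b ∈ E₀, a * b = b * a := fun a ha b hb =>
    congrArg Subtype.val (hE₀.1.is_comm.comm ⟨a, ha⟩ ⟨b, hb⟩)
  have hZcen : Z ≤ Subgroup.center R := (Subgroup.closure_le _).2 (fun z hz => hz.1)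
  have hZcomm : ∀ z ∈ Z, ∀ g : R, g * z = z * g := fun z hz g =>
    Subgroup.mem_center_iff.1 (hZcen hz) g
  have hZexp : ∀ z ∈ Z, z ^ p = 1 := by
    intro z hz
    induction hz using Subgroup.closure_induction with
    | mem y hy => exact hy.2
    | one => exact one_pow _
    | mul a b ha _ hap hbp =>
      have : Commute a b := (hZcomm a ha b).symm
      rw [this.mul_pow, hap, hbp, one_mul]
    | inv a _ hap => rw [inv_pow, hap, inv_one]
  have hc := sup_comm_of_comm E₀ Z hEc (fun a _ b hb => hZcomm b hb a)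
    (fun a _ b hb => hZcomm b hb a)
  have he := sup_pow_of_comm E₀ Z p hE₀.2 hZexp hc
  have hEA : Cfsg.IsElementaryAbelian p (E₀ ⊔ Z) :=
    ⟨⟨⟨fun a b => Subtype.ext (hc a a.2 b b.2)⟩⟩, he⟩
  have hle : Nat.card (E₀ ⊔ Z : Subgroup R) ≤ p ^ 2 :=
    hC _ hEA (fun b hb e he' => hc b hb e (Subgroup.mem_sup_left he'))
  -- `R` is nontrivial
  have hnt : Nontrivial R := by
    by_contra hnt
    rw [not_nontrivial_iff_subsingleton] at hnt
    apply hr
    intro A _ _
    have : Nat.card A = 1 := Nat.card_eq_one_iff_unique.mpr ⟨inferInstance, inferInstance⟩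
    rw [this]
    exact Nat.one_le_pow _ _ hpp.pos
  have hZp : p ≤ Nat.card Z := by
    have h2 := hR.center_nontrivial
    have h3 : p ∣ Nat.card (Subgroup.center R) := by
      obtain ⟨k, hk⟩ := (hR.to_subgroup (Subgroup.center R)).exists_card_eq
      rw [hk]
      apply dvd_pow_self
      rintro rfl
      rw [pow_zero] at hk
      have := (Nat.card_eq_one_iff_unique.mp hk).1
      exact not_subsingleton _ this
    obtain ⟨z, hz⟩ := exists_prime_orderOf_dvd_card' p h3
    have hzZ : (z : R) ∈ Z := by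
      apply Subgroup.subset_closure
      refine ⟨z.2, ?_⟩
      have : z ^ p = 1 := by rw [← hz]; exact pow_orderOf_eq_one z
      simpa using congrArg Subtype.val this
    have h4 : orderOf (z : R) = p := by rw [Subgroup.orderOf_coe]; exact hz
    rw [← h4]
    exact Nat.le_of_dvd Nat.card_pos (Subgroup.orderOf_dvd_natCard _ hzZ)
  have hge : p ^ 2 ≤ Nat.card (E₀ ⊔ Z : Subgroup R) := by
    obtain ⟨k, hk⟩ := (hR.to_subgroup (E₀ ⊔ Z)).exists_card_eq
    rw [hk]
    apply Nat.pow_le_pow_right hpp.pos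
    by_contra hk2
    have hk1 : k ≤ 1 := by omega
    have h1 : Nat.card (E₀ ⊔ Z : Subgroup R) ≤ Nat.card Z := by
      rw [hk]
      calc p ^ k ≤ p ^ 1 := Nat.pow_le_pow_right hpp.pos hk1
        _ = p := pow_one p
        _ ≤ Nat.card Z := hZp
    have h2 : Z = E₀ ⊔ Z := Subgroup.eq_of_le_of_card_ge le_sup_right h1
    have h3 : E₀ ≤ Z := by rw [h2]; exact le_sup_left
    apply hr
    intro A hA hAe
    exact hC A ⟨hA, hAe⟩ (fun b _ e he' => hZcomm e (h3 he') b)
  refine ⟨E₀ ⊔ Z, hEA, le_antisymm hle hge, ?_⟩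
  intro B hB hEB
  symm
  apply Subgroup.eq_of_le_of_card_ge hEB
  refine le_trans ?_ hge
  apply hC B hB
  intro b hb e he'
  exact congrArg Subtype.val (hB.1.is_comm.comm ⟨b, hb⟩ ⟨e, hEB (Subgroup.mem_sup_left he')⟩)

/-- rank bound for subgroups of the ambient group lying in `Y`. -/
theorem card_le_of_pRankLE_of_le {G : Type*} [Group G] {p k : ℕ} {Y : Subgroup G}
    (h : Cfsg.PRankLE p k Y) (X : Subgroup G) (hXY : X ≤ Y) (hc : ∀ a ∈ X, ∀ b ∈ X, a * b = b * a)
    (he : ∀ a ∈ X, a ^ p = 1) : Nat.card X ≤ p ^ k := by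
  rw [← Nat.card_congr (Subgroup.subgroupOfEquivOfLe hXY).toEquiv]
  apply h
  · exact ⟨⟨fun a b => Subtype.ext (Subtype.ext (hc a.1 a.2 b.1 b.2))⟩⟩
  · intro a ha
    exact Subtype.ext (he a ha)

end Cfsg.Agent.Lib.Helper3
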