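import Cfsg.Agent.Lib.Helper3.NarrowData
import Cfsg.Agent.Lib.Helper3.RankTwoStruct
import Cfsg.Agent.Lib.Helper87.FusionGroup
import Cfsg.Prelude.Def_OddOrderLocal

set_option autoImplicit false

namespace Cfsg.Agent.Lib.Helper3

open scoped commutatorElement

theorem narrowData_of_isNarrow {R : Type*} [Group R] [Finite R] {p : ℕ} [Fact p.Prime]
    (hR : IsPGroup p R) (hr : ¬ Cfsg.PRankLE p 2 R) (hN : Cfsg.IsNarrow p R) :
    NarrowData p R := by
  classical
  have hpp : p.Prime := Fact.out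
  rcases hN with hN | ⟨R₀, R₁, hR₀, hR₁, -, hcomm, hcent⟩
  · exact absurd hN hr
  have hcyc : IsCyclic R₀ := isCyclic_of_prime_card hR₀
  have hR₀e : ∀ a ∈ R₀, a ^ p = 1 := by
    intro a ha
    have : (⟨a, ha⟩ : R₀) ^ p = 1 := by rw [← hR₀]; exact pow_card_eq_one'
    simpa using congrArg Subtype.val this
  apply narrowData_of_centralizer hR hr R₀
  · refine ⟨⟨⟨fun a b => ?_⟩⟩, hR₀e⟩
    let _ := IsCyclic.commGroup (α := R₀)
    exact mul_comm a b
  · intro B hB hBR
    have hBle : B ≤ R₀ ⊔ R₁ := by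
      rw [hcent]
      intro b hb
      rw [Subgroup.mem_centralizer_iff]
      intro e he
      exact (hBR b hb e he).symm
    have hdec : ∀ b : B, ∃ a : R₀, ∃ c : {c : R₁ // c ^ p = 1}, (b : R) = (a : R) * ((c : R₁) : R) := by
      intro b
      obtain ⟨a, ha, c, hc, hbac⟩ := Cfsg.Agent.Lib.Helper87.mem_sup_of_normalizes
        (A := R₀) (B := R₁) (fun a ha c hc => by
          rw [hcomm a ha c hc, mul_inv_cancel_right]; exact hc) (hBle b.2)
      refine ⟨⟨a, ha⟩, ⟨⟨c, hc⟩, ?_⟩, hbac⟩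
      apply Subtype.ext
      show c ^ p = 1
      have h1 : c = a⁻¹ * b := by rw [hbac]; group
      have h2 : Commute a⁻¹ (b : R) := (Commute.inv_left (hBR b b.2 a ha).symm)
      rw [h1, h2.mul_pow, inv_pow, hR₀e a ha, hB.2 b b.2, inv_one, one_mul]
    choose fa fc hf using hdec
    have hinj : Function.Injective (fun b : B => (fa b, fc b)) := by
      intro b b' hbb
      apply Subtype.ext
      rw [hf b, hf b']
      have h1 : fa b = fa b' := congrArg Prod.fst hbb
      have h2 : fc b = fc b' := congrArg Prod.snd hbb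
      rw [h1, h2]
    have h1 := Nat.card_le_card_of_injective _ hinj
    rw [Nat.card_prod, hR₀] at h1
    have h2 : Nat.card {c : R₁ // c ^ p = 1} ≤ p := by
      have : Fintype R₁ := Fintype.ofFinite _
      rw [Nat.card_eq_fintype_card, Fintype.card_subtype]
      exact IsCyclic.card_pow_eq_one_le hpp.pos
    calc Nat.card B ≤ p * Nat.card {c : R₁ // c ^ p = 1} := h1
      _ ≤ p * p := Nat.mul_le_mul_left _ h2
      _ = p ^ 2 := (sq p).symm

/-- transport of the conclusions of `narrow_act` along an isomorphism. -/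
theorem narrow_act_congr {S R : Type*} [Group S] [Group R] {p : ℕ} (e : S ≃* R)
    (h : (∀ γ ∈ commutator (MulAut S), (orderOf γ).Coprime p → γ = 1) ∧
      ∀ α : MulAut S, (orderOf α).Coprime p → α ^ (p - 1) = 1) :
    (∀ γ ∈ commutator (MulAut R), (orderOf γ).Coprime p → γ = 1) ∧
      ∀ α : MulAut R, (orderOf α).Coprime p → α ^ (p - 1) = 1 := by
  constructor
  · intro γ hγ hc
    have h1 := h.1 ((MulAut.congr e).symm γ)
      (map_commutator_le (MulAut.congr e).symm.toMonoidHom hγ)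
      (by rw [MulEquiv.orderOf_eq]; exact hc)
    exact (MulEquiv.map_eq_one_iff _).1 h1
  · intro α hc
    have h1 := h.2 ((MulAut.congr e).symm α) (by rw [MulEquiv.orderOf_eq]; exact hc)
    rw [← map_pow] at h1
    exact (MulEquiv.map_eq_one_iff _).1 h1

/-- Structure of a solvable group `Y` with `O_{p'}(Y) = 1` whose `O_p(Y)` has a restricted
automorphism group. -/
theorem struct_of_pPrimeCore_eq_bot' {Y : Type*} [Group Y] [Finite Y] [Group.IsSolvable Y] {p : ℕ}
    [Fact p.Prime] (hO : Cfsg.pPrimeCore p Y = ⊥)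
    (h1 : ∀ γ ∈ commutator (MulAut (Cfsg.pCore p Y)), (orderOf γ).Coprime p → γ = 1)
    (h2 : ∀ α : MulAut (Cfsg.pCore p Y), (orderOf α).Coprime p → α ^ (p - 1) = 1) :
    commutator Y ≤ Cfsg.pCore p Y ∧ ((Cfsg.pCore p Y).index).Coprime p ∧
      ∀ q : ℕ, q.Prime → q ∣ Nat.card Y → q ≤ p := by
  have hp : p.Prime := Fact.out
  have hRn : (Cfsg.pCore p Y).Normal := Cfsg.Agent.Lib.Helper30.pCore_normal' p Y
  have hRp : IsPGroup p (Cfsg.pCore p Y) := Cfsg.Agent.Lib.Helper40.isPGroup_pCore p Y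
  have hC := Cfsg.Agent.Lib.Helper30.centralizer_pCore_le_of_solvable (p := p) (G := Y) hO
  let ψ : Y →* MulAut (Cfsg.pCore p Y) := MulAut.conjNormal
  have hker : ∀ y : Y, ψ y = 1 → y ∈ Cfsg.pCore p Y := by
    intro y hy
    apply hC
    rw [Subgroup.mem_centralizer_iff]
    intro r hr'
    have h1 := congrArg (fun f => ((f ⟨r, hr'⟩ : Cfsg.pCore p Y) : Y)) hy
    simp only [ψ, MulAut.conjNormal_apply, MulAut.one_apply] at h1
    exact (mul_inv_eq_iff_eq_mul.1 h1).symm
  have hcop : ∀ y : Y, y ∈ Cfsg.pCore p Y → (orderOf y).Coprime p → y = 1 := by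
    intro y hy hc
    obtain ⟨k, hk⟩ := hRp ⟨y, hy⟩
    have hk' : y ^ p ^ k = 1 := by simpa using congrArg Subtype.val hk
    exact Cfsg.Agent.Lib.Helper40.eq_one_of_pow_eq_one_of_coprime hk' hc
  have hA : commutator Y ≤ Cfsg.pCore p Y := by
    apply Cfsg.Agent.Lib.Helper40.le_pCore
    intro x
    obtain ⟨a, ha⟩ := Cfsg.Agent.Lib.Helper40.exists_pow_coprime p (x : Y)
    refine ⟨a, ?_⟩
    apply Subtype.ext
    have h1' : (x : Y) ^ p ^ a ∈ commutator Y := (commutator Y).pow_mem x.2 _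
    have h2' : (orderOf (ψ ((x : Y) ^ p ^ a))).Coprime p :=
      Nat.Coprime.coprime_dvd_left (orderOf_map_dvd ψ _) ha
    have h3 := h1 _ (map_commutator_le ψ h1') h2'
    have h4 := hcop _ (hker _ h3) ha
    simpa using h4
  refine ⟨hA, ?_, ?_⟩
  · obtain ⟨Q, hQ⟩ := hRp.exists_le_sylow
    have : (Q : Subgroup Y).Normal := normal_of_commutator_le _ (hA.trans hQ)
    have h1 : (Q : Subgroup Y) ≤ Cfsg.pCore p Y := Cfsg.Agent.Lib.Helper40.le_pCore Q.2
    have h2 : Cfsg.pCore p Y = Q := le_antisymm hQ h1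
    rw [h2]
    exact ((Nat.Prime.coprime_iff_not_dvd hp).2 Q.not_dvd_index).symm
  · intro q hq hqY
    by_cases hqp : q = p
    · exact hqp.le
    have : Fact q.Prime := ⟨hq⟩
    obtain ⟨y, hy⟩ := exists_prime_orderOf_dvd_card' q hqY
    have hyc : (orderOf y).Coprime p := by
      rw [hy]; exact (Nat.coprime_primes hq hp).2 hqp
    have h1' : ψ y ≠ 1 := by
      intro h
      have := hcop y (hker y h) hyc
      rw [this, orderOf_one] at hy
      exact hq.ne_one hy.symm
    have h2' : orderOf (ψ y) ∣ q := by rw [← hy]; exact orderOf_map_dvd ψ y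
    have h3 : orderOf (ψ y) = q := by
      rcases (Nat.dvd_prime hq).1 h2' with h | h
      · exact absurd (orderOf_eq_one_iff.1 h) h1'
      · exact h
    have h4 := h2 (ψ y) (Nat.Coprime.coprime_dvd_left (orderOf_map_dvd ψ y) hyc)
    have h5 : q ∣ p - 1 := by rw [← h3]; exact orderOf_dvd_of_pow_eq_one h4
    have h6 : q ≤ p - 1 := Nat.le_of_dvd (by have := hp.two_le; omega) h5
    omega

/-- passage from `G / O_{p'}(G)` to `G` (conclusions of B-G 4.18). -/
theorem bg418_of_quotient {G : Type*} [Group G] [Finite G] (hodd : Odd (Nat.card G)) (p : ℕ)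
    [Fact p.Prime]
    (hA : commutator (G ⧸ Cfsg.pPrimeCore p G) ≤ Cfsg.pCore p (G ⧸ Cfsg.pPrimeCore p G))
    (hB : ((Cfsg.pCore p (G ⧸ Cfsg.pPrimeCore p G)).index).Coprime p)
    (hC : ∀ q : ℕ, q.Prime → q ∣ Nat.card (G ⧸ Cfsg.pPrimeCore p G) → q ≤ p) :
    (∀ q : ℕ, q.Prime → q ∣ (Cfsg.pPrimeCore p G).index → q ≤ p) ∧
      ((p = 3 ∨ ∀ q : ℕ, q.Prime → q ∣ Nat.card G → p ≤ q) → Cfsg.HasNormalPComplement p G) ∧
      Cfsg.HasNormalPComplement p ↥(commutator G) ∧
      (∀ L : Subgroup ↥(commutator G), (Nat.card L).Coprime p →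
        L ≤ Cfsg.pPrimeCore p ↥(commutator G)) ∧
      commutator G ≤ Cfsg.pPrimePCore p G ∧ ((Cfsg.pPrimePCore p G).index).Coprime p := by
  have hp : p.Prime := Fact.out
  have hKn : (Cfsg.pPrimeCore p G).Normal := (Cfsg.Agent.Lib.Helper40.pPrimeCore_mem p G).1
  have hKc : (Nat.card (Cfsg.pPrimeCore p G)).Coprime p :=
    Cfsg.Agent.Lib.Helper40.card_pPrimeCore_coprime p G
  have hYdvd : Nat.card (G ⧸ Cfsg.pPrimeCore p G) ∣ Nat.card G :=
    Subgroup.card_quotient_dvd_card _
  have hYodd : Odd (Nat.card (G ⧸ Cfsg.pPrimeCore p G)) := Odd.of_dvd_nat hodd hYdvd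
  have hRp : IsPGroup p (Cfsg.pCore p (G ⧸ Cfsg.pPrimeCore p G)) :=
    Cfsg.Agent.Lib.Helper40.isPGroup_pCore p _
  -- images of commutators
  have hmap : ∀ g ∈ commutator G, (QuotientGroup.mk' (Cfsg.pPrimeCore p G)) g ∈
      commutator (G ⧸ Cfsg.pPrimeCore p G) := by
    intro g hg
    have h1 : (commutator G).map (QuotientGroup.mk' (Cfsg.pPrimeCore p G)) ≤
        commutator (G ⧸ Cfsg.pPrimeCore p G) := by
      rw [commutator_def, commutator_def, Subgroup.map_commutator]
      exact Subgroup.commutator_mono le_top le_top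
    exact h1 (Subgroup.mem_map_of_mem _ hg)
  have hpow : ∀ g ∈ commutator G, ∃ k : ℕ, g ^ p ^ k ∈ Cfsg.pPrimeCore p G := by
    intro g hg
    obtain ⟨k, hk⟩ := hRp ⟨_, hA (hmap g hg)⟩
    refine ⟨k, ?_⟩
    have hk' := congrArg Subtype.val hk
    simp only [Subgroup.coe_pow, Subgroup.coe_one, QuotientGroup.mk'_apply] at hk'
    rw [← QuotientGroup.mk_pow, QuotientGroup.eq_one_iff] at hk'
    exact hk'
  -- the normal p-complement of the derived group
  have hNn : ((Cfsg.pPrimeCore p G).subgroupOf (commutator G)).Normal := inferInstance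
  have hNc : (Nat.card ((Cfsg.pPrimeCore p G).subgroupOf (commutator G))).Coprime p := by
    refine Nat.Coprime.coprime_dvd_left ?_ hKc
    let f : ((Cfsg.pPrimeCore p G).subgroupOf (commutator G)) →* Cfsg.pPrimeCore p G :=
      ((commutator G).subtype.comp
        ((Cfsg.pPrimeCore p G).subgroupOf (commutator G)).subtype).codRestrict _ (fun x => x.2)
    apply Subgroup.card_dvd_of_injective f
    intro x y hxy
    have := congrArg Subtype.val hxy
    exact Subtype.ext (Subtype.ext this)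
  have hNq : IsPGroup p (↥(commutator G) ⧸ (Cfsg.pPrimeCore p G).subgroupOf (commutator G)) := by
    intro x
    obtain ⟨d, rfl⟩ := QuotientGroup.mk_surjective x
    obtain ⟨k, hk⟩ := hpow d d.2
    refine ⟨k, ?_⟩
    rw [← QuotientGroup.mk_pow, QuotientGroup.eq_one_iff]
    exact hk
  refine ⟨?_, ?_, ?_, ?_, ?_, ?_⟩
  · intro q hq hqd
    rw [Subgroup.index_eq_card] at hqd
    exact hC q hq hqd
  · intro hcase
    apply Cfsg.Agent.Lib.Helper40.hasNormalPComplement_of_coprime_of_isPGroup _ hKc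
    have huniq : ∀ {d : ℕ}, d.Prime → d ∣ Nat.card (G ⧸ Cfsg.pPrimeCore p G) → d = p := by
      intro d hd hdd
      apply le_antisymm (hC d hd hdd)
      rcases hcase with rfl | h
      · have h2 : d ≠ 2 := by
          rintro rfl
          exact (Nat.not_even_iff_odd.2 hYodd) (even_iff_two_dvd.2 hdd)
        have := hd.two_le
        omega
      · exact h d hd (hdd.trans hYdvd)
    exact IsPGroup.of_card (Nat.eq_prime_pow_of_unique_prime_dvd (Nat.card_pos).ne' huniq)
  · exact Cfsg.Agent.Lib.Helper40.hasNormalPComplement_of_coprime_of_isPGroup _ hNc hNq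
  · intro L hL l hl
    apply Cfsg.Agent.Lib.Helper40.le_pPrimeCore hNc
    rw [← QuotientGroup.eq_one_iff]
    obtain ⟨k, hk⟩ := hNq (l : ↥(commutator G) ⧸ (Cfsg.pPrimeCore p G).subgroupOf (commutator G))
    apply Cfsg.Agent.Lib.Helper40.eq_one_of_pow_eq_one_of_coprime hk
    have h4 : orderOf (l : ↥(commutator G) ⧸ (Cfsg.pPrimeCore p G).subgroupOf (commutator G)) ∣
        orderOf l := by
      have := orderOf_map_dvd (QuotientGroup.mk' ((Cfsg.pPrimeCore p G).subgroupOf (commutator G))) l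
      simpa using this
    exact Nat.Coprime.coprime_dvd_left (h4.trans (Subgroup.orderOf_dvd_natCard L hl)) hL
  · intro g hg
    exact hA (hmap g hg)
  · unfold Cfsg.pPrimePCore
    rw [Subgroup.index_comap_of_surjective _ (QuotientGroup.mk'_surjective _)]
    exact hB

end Cfsg.Agent.Lib.Helper3
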