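import Mathlib

/-! LADDER W3 (S2400), rung PRIME -/

set_option autoImplicit false

namespace Cfsg.Agent.Lib.Helper45.StW

/-- [PRIME] (abstract) -/
theorem bil_prime {K : Type*} [Field K] {A : Type*} [Group A] (f : K → K → A)
    (h3 : ∀ t : K, t = 0 ∨ t = 1 ∨ t = -1)
    (hl : ∀ t t' u, f (t + t') u = f t u * f t' u) (hr : ∀ t u u', f t (u + u') = f t u * f t u')
    (h30 : (3 : K) = 0) (hs : f 1 1 * f 1 1 = 1) (t u : K) : f t u = 1 := by
  have hl0 : ∀ u, f 0 u = 1 := by
    intro u
    have := hl 0 0 u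
    rw [add_zero] at this
    exact left_eq_mul.mp this
  have hr0 : ∀ t, f t 0 = 1 := by
    intro t
    have := hr t 0 0
    rw [add_zero] at this
    exact left_eq_mul.mp this
  have h111 : f 1 1 * f 1 1 * f 1 1 = 1 := by
    rw [← hl, ← hl, ← hl0 1]
    congr 1
    rw [← h30]
    norm_num
  have h11 : f 1 1 = 1 := by
    rw [hs, one_mul] at h111
    exact h111
  have hln : ∀ u, f (-1) u = (f 1 u)⁻¹ := by
    intro u
    have := hl (-1) 1 u
    rw [neg_add_cancel, hl0] at this
    exact eq_inv_of_mul_eq_one_left this.symm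
  have hrn : ∀ t, f t (-1) = (f t 1)⁻¹ := by
    intro t
    have := hr t (-1) 1
    rw [neg_add_cancel, hr0] at this
    exact eq_inv_of_mul_eq_one_left this.symm
  rcases h3 t with rfl | rfl | rfl
  · exact hl0 u
  · rcases h3 u with rfl | rfl | rfl
    · exact hr0 _
    · exact h11
    · rw [hrn, h11, inv_one]
  · rcases h3 u with rfl | rfl | rfl
    · exact hr0 _
    · rw [hln, h11, inv_one]
    · rw [hln, hrn, h11, inv_one, inv_one]

end Cfsg.Agent.Lib.Helper45.StW
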